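/-
An orbit of type B2 in characteristic two: the fixed elements of its root groups.
-/
import Cfsg.Agent.Lib.Tw.Base

set_option autoImplicit false

namespace Cfsg.Lib.Tw

open Cfsg.Lie Cfsg.Lib.Chev

variable {D : ChevalleyDatum} {A : Aux} {hc : Cert D A} {K : Type*} [Field K]

/-- four root groups `a, b, a+b, 2a+b` exchanged by the twist -/
structure B2Data (S : Sigma hc K) where
  /-- the root group of `a` -/
  Xa : K → GL D.Idx K
  /-- the root group of `b` -/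
  Xb : K → GL D.Idx K
  /-- the root group of `a+b` -/
  Xc : K → GL D.Idx K
  /-- the root group of `2a+b` -/
  Xd : K → GL D.Idx K
  /-- the field map of the short roots -/
  f : K ≃+* K
  /-- the field map of the long roots -/
  g : K ≃+* K
  two : (2 : K) = 0
  fg : ∀ x, f (g x) = x
  gf : ∀ x, g (f x) = x
  gsq : ∀ x, g x ^ 2 = f x
  memA : ∀ v, Xa v ∈ D.group K
  memB : ∀ v, Xb v ∈ D.group K
  memC : ∀ v, Xc v ∈ D.group K
  memD : ∀ v, Xd v ∈ D.group K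
  addA : ∀ s t, Xa s * Xa t = Xa (s + t)
  addB : ∀ s t, Xb s * Xb t = Xb (s + t)
  addC : ∀ s t, Xc s * Xc t = Xc (s + t)
  addD : ∀ s t, Xd s * Xd t = Xd (s + t)
  appA : ∀ v, S.app (Xa v) = Xb (f v)
  appB : ∀ v, S.app (Xb v) = Xa (g v)
  appC : ∀ v, S.app (Xc v) = Xd (f v)
  appD : ∀ v, S.app (Xd v) = Xc (g v)
  swap : ∀ t u, Xb u * Xa t = Xa t * Xb u * Xc (t * u) * Xd (t ^ 2 * u)
  commAC : ∀ s t, Commute (Xa s) (Xc t)
  commAD : ∀ s t, Commute (Xa s) (Xd t)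
  commBC : ∀ s t, Commute (Xb s) (Xc t)
  commBD : ∀ s t, Commute (Xb s) (Xd t)
  commCD : ∀ s t, Commute (Xc s) (Xd t)

variable {S : Sigma hc K} (B : B2Data S)

/-- a product of the four root elements -/
def B2Data.W (α β γ δ : K) : GL D.Idx K := B.Xa α * B.Xb β * B.Xc γ * B.Xd δ

theorem B2Data.W_mem (α β γ δ : K) : B.W α β γ δ ∈ D.group K :=
  mul_mem (mul_mem (mul_mem (B.memA α) (B.memB β)) (B.memC γ)) (B.memD δ)

include B in
theorem B2Data.add_self (x : K) : x + x = 0 := by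
  have h := B.two
  linear_combination x * h

theorem B2Data.W_mul (α β γ δ α' β' γ' δ' : K) :
    B.W α β γ δ * B.W α' β' γ' δ' =
      B.W (α + α') (β + β') (γ + γ' + α' * β) (δ + δ' + α' ^ 2 * β) := by
  simp only [B2Data.W]
  calc B.Xa α * B.Xb β * B.Xc γ * B.Xd δ * (B.Xa α' * B.Xb β' * B.Xc γ' * B.Xd δ')
      = B.Xa α * B.Xb β * B.Xc γ * (B.Xd δ * B.Xa α') * (B.Xb β' * B.Xc γ' * B.Xd δ') := by
        simp only [mul_assoc]
    _ = B.Xa α * B.Xb β * (B.Xc γ * B.Xa α') * B.Xd δ * (B.Xb β' * B.Xc γ' * B.Xd δ') := by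
        rw [← (B.commAD α' δ).eq]; simp only [mul_assoc]
    _ = B.Xa α * (B.Xb β * B.Xa α') * B.Xc γ * B.Xd δ * (B.Xb β' * B.Xc γ' * B.Xd δ') := by
        rw [← (B.commAC α' γ).eq]; simp only [mul_assoc]
    _ = B.Xa (α + α') * B.Xb β * B.Xc (α' * β) * (B.Xd (α' ^ 2 * β) * B.Xc γ) * B.Xd δ *
          (B.Xb β' * B.Xc γ' * B.Xd δ') := by
        rw [B.swap, ← B.addA]; simp only [mul_assoc]
    _ = B.Xa (α + α') * B.Xb β * (B.Xc (γ + α' * β) * B.Xd (δ + α' ^ 2 * β) * B.Xb β') *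
          (B.Xc γ' * B.Xd δ') := by
        rw [← (B.commCD γ (α' ^ 2 * β)).eq, add_comm γ, add_comm δ, ← B.addC, ← B.addD]; simp only [mul_assoc]
    _ = B.Xa (α + α') * (B.Xb β * B.Xb β') * B.Xc (γ + α' * β) * (B.Xd (δ + α' ^ 2 * β) * B.Xc γ') * B.Xd δ' := by
        rw [mul_assoc (B.Xc _) (B.Xd _) (B.Xb _), ← (B.commBD β' _).eq, ← mul_assoc (B.Xc _) (B.Xb _),
          ← (B.commBC β' _).eq]
        simp only [mul_assoc]
    _ = _ := by
        rw [B.addB, ← (B.commCD γ' _).eq, add_right_comm γ γ', add_right_comm δ δ', ← B.addC (γ + α' * β),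
          ← B.addD (δ + α' ^ 2 * β)]
        simp only [mul_assoc]

theorem B2Data.app_W (α β γ δ : K) :
    S.app (B.W α β γ δ) = B.W (B.g β) (B.f α) (B.g β * B.f α + B.g δ) (B.g β ^ 2 * B.f α + B.f γ) := by
  have h1 := mul_mem (B.memA α) (B.memB β)
  rw [B2Data.W, S.app_mul (mul_mem h1 (B.memC γ)) (B.memD δ), S.app_mul h1 (B.memC γ),
    S.app_mul (B.memA α) (B.memB β), B.appA, B.appB, B.appC, B.appD, B.swap, B2Data.W,
    mul_assoc _ (B.Xd (B.f γ)) (B.Xc (B.g δ)), ← (B.commCD (B.g δ) (B.f γ)).eq, ← B.addC, ← B.addD]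
  simp only [mul_assoc]
  rw [← mul_assoc (B.Xd (B.g β ^ 2 * B.f α)) (B.Xc (B.g δ)), ← (B.commCD (B.g δ) _).eq]
  simp only [mul_assoc]

/-- the fixed element with parameters `t, u` -/
def B2Data.word (t u : K) : GL D.Idx K := B.W (B.g t) t (B.g t * t + u) (B.f u)

theorem B2Data.word_fixed (t u : K) : B.word t u ∈ S.fix := by
  refine ⟨B.W_mem _ _ _ _, ?_⟩
  rw [B2Data.word, B.app_W, B.fg, B.gf, map_add, map_mul, B.fg, B.gsq]
  congr 1
  rw [show B.f t * t + (t * B.f t + B.f u) = (B.f t * t + B.f t * t) + B.f u by ring, B.add_self, zero_add]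

theorem B2Data.word_mul (t u t' u' : K) :
    B.word t u * B.word t' u' = B.word (t + t') (u + u' + B.g t * t') := by
  simp only [B2Data.word]
  rw [B.W_mul, map_add]
  congr 1
  · rw [show (B.g t + B.g t') * (t + t') + (u + u' + B.g t * t') =
        B.g t * t + u + (B.g t' * t' + u') + B.g t' * t + (B.g t * t' + B.g t * t') by ring, B.add_self, add_zero]
  · rw [map_add, map_add, map_mul, B.fg, B.gsq, mul_comm t (B.f t')]

theorem B2Data.word_conj (h : GL D.Idx K) (la lb lc ld : K)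
    (ha : ∀ v, h * B.Xa v * h⁻¹ = B.Xa (la * v)) (hb : ∀ v, h * B.Xb v * h⁻¹ = B.Xb (lb * v))
    (hC : ∀ v, h * B.Xc v * h⁻¹ = B.Xc (lc * v)) (hd : ∀ v, h * B.Xd v * h⁻¹ = B.Xd (ld * v))
    (e1 : la = B.g lb) (e2 : lc = la * lb) (e3 : ld = B.f lc) (t u : K) :
    h * B.word t u * h⁻¹ = B.word (lb * t) (lc * u) := by
  simp only [B2Data.word, B2Data.W]
  rw [show h * (B.Xa (B.g t) * B.Xb t * B.Xc (B.g t * t + u) * B.Xd (B.f u)) * h⁻¹ =
    (h * B.Xa (B.g t) * h⁻¹) * (h * B.Xb t * h⁻¹) * (h * B.Xc (B.g t * t + u) * h⁻¹) *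
      (h * B.Xd (B.f u) * h⁻¹) by group, ha, hb, hC, hd, map_mul, map_mul, ← e1, ← e3]
  congr 3
  rw [e2]; ring

/-- a fixed product is a word, granted uniqueness of the parameters -/
theorem B2Data.word_of_fixed
    (hinj : ∀ α β γ δ α' β' γ' δ', B.W α β γ δ = B.W α' β' γ' δ' → α = α' ∧ β = β' ∧ γ = γ' ∧ δ = δ')
    {α β γ δ : K} (h : B.W α β γ δ ∈ S.fix) : B.W α β γ δ = B.word β (γ + B.g β * β) := by
  have e := h.2
  rw [B.app_W] at e
  obtain ⟨e1, e2, e3, e4⟩ := hinj _ _ _ _ _ _ _ _ e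
  rw [B2Data.word, e1, add_comm γ, ← add_assoc, B.add_self, zero_add]
  congr 1
  rw [map_add, map_mul, ← e4, ← e1, B.gsq]
  ring

end Cfsg.Lib.Tw
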