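/-
The groups 3D4(q).
-/
import Cfsg.Agent.Lib.Tw.Tools
import Cfsg.Agent.Lib.Chev.All
import Cfsg.Prelude.Def_LieTwisted

set_option autoImplicit false

namespace Cfsg.Lib.Tw.D4

open Cfsg.Lie Cfsg.Lib.Chev

variable {K : Type*} [Field K] [Fintype K] {q : ℕ}

/-- the first node -/
def n0 : Fin chevD4.rank := ⟨0, by decide⟩
/-- the central node -/
def n1 : Fin chevD4.rank := ⟨1, by decide⟩
/-- the third node -/
def n2 : Fin chevD4.rank := ⟨2, by decide⟩
/-- the fourth node -/
def n3 : Fin chevD4.rank := ⟨3, by decide⟩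

theorem node_cases (i : Fin chevD4.rank) : i = n0 ∨ i = n1 ∨ i = n2 ∨ i = n3 := by
  have hr : chevD4.rank = 4 := by decide
  obtain ⟨i, hi⟩ := i
  rw [hr] at hi
  simp only [n0, n1, n2, n3, Fin.ext_iff]
  omega

/-- the twisting endomorphism with its orbits -/
structure Setup (K : Type*) [Field K] (q : ℕ) where
  /-- the endomorphism -/
  S : Sigma certD4 K
  /-- the orbits -/
  O : Orbits S
  no : O.no = orbD4.os.length
  node : S.node = nodePerm symOK_D4
  root : S.root = rootPerm symOK_D4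
  phi : ∀ i t, S.phi i t = t ^ q
  orb : ∀ J, O.nd J = toFins chevD4.rank (orbD4.os.getD (Fin.cast no J) []) ∧
    O.wJ J = toFins chevD4.rank (orbD4.ws.getD (Fin.cast no J) [])

theorem exists_setup (hq : IsPrimePow q) (hK : Fintype.card K = q ^ 3) : Nonempty (Setup K q) := by
  obtain ⟨p, a, hp, ha, rfl⟩ := (isPrimePow_nat_iff q).1 hq
  rw [← pow_mul] at hK
  obtain ⟨θ, hθ⟩ := exists_qAut (a := a) hp hK (by omega)
  have hinj : ∀ g ∈ chevD4.group K, subMat chevD4 isoD4.li (isoOK_spec isoOK_D4).2.2.2.1 []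
      (g : Matrix chevD4.Idx chevD4.Idx K) = 1 → g = 1 := fun g _ h =>
    subMat_full _ (isoOK_spec isoOK_D4).1 (by decide +kernel) h
  obtain ⟨S, h1, h2, h3⟩ := exists_sigma certD4 isoOK_D4 symOK_D4 (Nat.cast_zero (R := K)) hinj θ (fun _ => θ)
    (fun i t => by
      have hl : ∀ j : Fin chevD4.rank, isoD4.lam.getD j 0 = 1 := by decide +kernel
      rw [hl, pow_one])
  obtain ⟨O, e, hO⟩ := exists_orbits symOK_D4 orbOK_D4 h1 h2
  exact ⟨⟨S, O, e, h1, h2, fun i t => by rw [h3, hθ], hO⟩⟩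

theorem two_le (hq : IsPrimePow q) : 2 ≤ q := hq.two_le

theorem sub_one_dvd {N k : ℕ} (h : N = q ^ k) : q - 1 ∣ N - 1 := by
  subst h
  simpa using Nat.sub_dvd_pow_sub_pow q 1 k

variable (T : Setup K q)

/-- the orbit of the central node -/
def Setup.J0 : Fin T.O.no := ⟨0, by rw [T.no]; decide +kernel⟩
/-- the orbit of the outer nodes -/
def Setup.J1 : Fin T.O.no := ⟨1, by rw [T.no]; decide +kernel⟩

theorem Setup.J_cases (J : Fin T.O.no) : J = T.J0 ∨ J = T.J1 := by
  obtain ⟨J, hJ⟩ := J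
  rw [T.no, show orbD4.os.length = 2 from rfl] at hJ
  simp only [Setup.J0, Setup.J1, Fin.ext_iff]
  omega

theorem Setup.nd0 : T.O.nd T.J0 = [n1] := by rw [(T.orb _).1]; rfl
theorem Setup.nd1 : T.O.nd T.J1 = [n0, n2, n3] := by rw [(T.orb _).1]; rfl
theorem Setup.wJ0 : T.O.wJ T.J0 = [n1] := by rw [(T.orb _).2]; rfl
theorem Setup.wJ1 : T.O.wJ T.J1 = [n0, n2, n3] := by rw [(T.orb _).2]; rfl

theorem Setup.node0 : T.S.node n0 = n2 := by rw [T.node]; exact Fin.ext rfl
theorem Setup.node1 : T.S.node n1 = n1 := by rw [T.node]; exact Fin.ext rfl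
theorem Setup.node2 : T.S.node n2 = n3 := by rw [T.node]; exact Fin.ext rfl
theorem Setup.node3 : T.S.node n3 = n0 := by rw [T.node]; exact Fin.ext rfl

theorem Setup.closed (J : Fin T.O.no) : ∀ i ∈ T.O.nd J, T.S.node i ∈ T.O.nd J := by
  rcases T.J_cases J with rfl | rfl
  · simp [T.nd0, T.node1]
  · simp [T.nd1, T.node0, T.node2, T.node3]

omit [Fintype K] in
theorem word_ok {w : List (ℕ × K)} (hw : w ∈ d4Words K q) : ∀ p ∈ w, p.1 < chevD4.nroots := by
  have hn : chevD4.nroots = 24 := by decide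
  rcases hw with ⟨t, -, r, hr, rfl⟩ | ⟨t, rs, hrs, rfl⟩
  · simp only [List.mem_cons, List.not_mem_nil, or_false] at hr
    rcases hr with rfl | rfl <;> simp [d4p2, d4m2, hn]
  · simp only [List.mem_cons, List.not_mem_nil, or_false] at hrs
    rcases hrs with rfl | rfl <;> simp [d4p1, d4p3, d4p4, d4m1, d4m3, d4m4, hn]

theorem Setup.orth (hK : Fintype.card K = q ^ 3) (J : Fin T.O.no) : Orth T.O J (twistedD4 K q) := by
  rcases T.J_cases J with rfl | rfl
  · refine ⟨by rw [T.wJ0, T.nd0], by rw [T.nd0]; decide +kernel, fun b t ht => ?_⟩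
    have h1 : t n1 ^ q = t n1 := by
      have := ht n1 (by simp [T.nd0])
      rw [T.node1, T.phi] at this
      exact this.symm
    have hw : [(sgnRoot chevD4 b n1, t n1)] ∈ d4Words K q :=
      Or.inl ⟨t n1, h1, sgnRoot chevD4 b n1, by cases b <;> decide +kernel, rfl⟩
    have := wordProd_mem_gen (hc := certD4) hw (word_ok hw)
    simpa [wordProd, T.nd0, twistedD4] using this
  · refine ⟨by rw [T.wJ1, T.nd1], by rw [T.nd1]; decide +kernel, fun b t ht => ?_⟩
    have h2 : t n2 = t n0 ^ q := by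
      have := ht n0 (by simp [T.nd1])
      rw [T.node0, T.phi] at this
      exact this
    have h3 : t n3 = t n0 ^ (q ^ 2) := by
      have := ht n2 (by simp [T.nd1])
      rw [T.node2, T.phi, h2, ← pow_mul, ← sq] at this
      exact this
    have hw : [(sgnRoot chevD4 b n0, t n0), (sgnRoot chevD4 b n2, t n0 ^ q), (sgnRoot chevD4 b n3, t n0 ^ (q ^ 2))] ∈
        d4Words K q :=
      Or.inr ⟨t n0, (sgnRoot chevD4 b n0, sgnRoot chevD4 b n2, sgnRoot chevD4 b n3), by cases b <;> decide +kernel, rfl⟩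
    have := wordProd_mem_gen (hc := certD4) hw (word_ok hw)
    simpa [wordProd, T.nd1, h2, h3, twistedD4] using this

theorem Setup.gen_eq_orbProd (hK : Fintype.card K = q ^ 3) {w : List (ℕ × K)} (hw : w ∈ d4Words K q) :
    ∃ J b t, (∀ i ∈ T.O.nd J, t (T.S.node i) = T.S.phi i (t i)) ∧ wordProd chevD4 w = orbProd T.O J b t := by
  rcases hw with ⟨t, ht, r, hr, rfl⟩ | ⟨t, rs, hrs, rfl⟩
  · have key : ∃ b, r = sgnRoot chevD4 b n1 := by
      simp only [List.mem_cons, List.not_mem_nil, or_false] at hr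
      rcases hr with rfl | rfl
      exacts [⟨true, by decide +kernel⟩, ⟨false, by decide +kernel⟩]
    obtain ⟨b, rfl⟩ := key
    refine ⟨T.J0, b, fun _ => t, fun i _ => by rw [T.phi, ht], ?_⟩
    simp [wordProd, orbProd, T.nd0]
  · have key : ∃ b, rs = (sgnRoot chevD4 b n0, sgnRoot chevD4 b n2, sgnRoot chevD4 b n3) := by
      simp only [List.mem_cons, List.not_mem_nil, or_false] at hrs
      rcases hrs with rfl | rfl
      exacts [⟨true, by decide +kernel⟩, ⟨false, by decide +kernel⟩]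
    obtain ⟨b, rfl⟩ := key
    let f : Fin chevD4.rank → K := fun i => if i = n2 then t ^ q else if i = n3 then t ^ (q ^ 2) else t
    have hf0 : f n0 = t := by simp [f, n0, n2, n3]
    have hf2 : f n2 = t ^ q := by simp [f]
    have hf3 : f n3 = t ^ (q ^ 2) := by simp [f, n2, n3]
    refine ⟨T.J1, b, f, fun i hi => ?_, ?_⟩
    · simp only [T.nd1, List.mem_cons, List.not_mem_nil, or_false] at hi
      rcases hi with rfl | rfl | rfl
      · rw [T.node0, T.phi, hf0, hf2]
      · rw [T.node2, T.phi, hf2, hf3, ← pow_mul, sq]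
      · rw [T.node3, T.phi, hf3, hf0, ← pow_mul, ← pow_succ, ← hK, FiniteField.pow_card]
    · simp [wordProd, orbProd, T.nd1, hf0, hf2, hf3]

theorem Setup.le_fix (hK : Fintype.card K = q ^ 3) : twistedD4 K q ≤ T.S.fix := by
  refine gen_le (hc := certD4) fun w hw => ⟨word_ok hw, ?_⟩
  obtain ⟨J, b, t, ht, e⟩ := T.gen_eq_orbProd hK hw
  rw [e]
  exact ⟨orbProd_mem_group b t, orbProd_app (T.orth hK J).ok b (T.closed J) ht⟩

theorem cA_table : ∀ k j : Fin chevD4.rank, auxD4.cA k (chevD4.simple j) =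
    ([[2, -1, 0, 0], [-1, 2, -1, -1], [0, -1, 2, 0], [0, -1, 0, 2]].getD k []).getD j 0 := by decide +kernel

theorem tchar_eq (c : Fin chevD4.rank → Kˣ) :
    tchar auxD4 c (chevD4.simple n0) = c n0 ^ 2 * (c n1)⁻¹ ∧
    tchar auxD4 c (chevD4.simple n1) = c n1 ^ 2 * (c n0 * c n2 * c n3)⁻¹ ∧
    tchar auxD4 c (chevD4.simple n2) = c n2 ^ 2 * (c n1)⁻¹ ∧
    tchar auxD4 c (chevD4.simple n3) = c n3 ^ 2 * (c n1)⁻¹ := by
  have e : ∀ j : Fin chevD4.rank, tchar auxD4 c (chevD4.simple j) =
      c n0 ^ auxD4.cA n0 (chevD4.simple j) * c n1 ^ auxD4.cA n1 (chevD4.simple j) *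
        c n2 ^ auxD4.cA n2 (chevD4.simple j) * c n3 ^ auxD4.cA n3 (chevD4.simple j) := fun j =>
    Fin.prod_univ_four fun k : Fin 4 => c k ^ auxD4.cA k (chevD4.simple j)
  refine ⟨?_, ?_, ?_, ?_⟩ <;>
  · rw [e, cA_table, cA_table, cA_table, cA_table]
    simp [n0, n1, n2, n3, mul_inv_rev, mul_comm, mul_left_comm, mul_assoc]

theorem Setup.mem_fixT (hK : Fintype.card K = q ^ 3) {c : Fin chevD4.rank → Kˣ} :
    c ∈ T.S.fixT ↔ c n2 = c n0 ^ q ∧ c n3 = c n2 ^ q ∧ c n1 ^ q = c n1 := by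
  rw [T.S.mem_fixT_iff]
  constructor
  · intro h
    have a := h n0; have b := h n2; have d := h n1
    rw [T.node0, T.phi] at a; rw [T.node2, T.phi] at b; rw [T.node1, T.phi] at d
    exact ⟨Units.ext (by simpa using a), Units.ext (by simpa using b), Units.ext (by simpa using d.symm)⟩
  · rintro ⟨a, b, d⟩ i
    rcases node_cases i with rfl | rfl | rfl | rfl
    · rw [T.node0, T.phi, a, Units.val_pow_eq_pow_val]
    · rw [T.node1, T.phi, ← Units.val_pow_eq_pow_val, d]
    · rw [T.node2, T.phi, b, Units.val_pow_eq_pow_val]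
    · rw [T.node3, T.phi, b, a, ← pow_mul, Units.val_pow_eq_pow_val, ← pow_mul, ← sq, ← pow_succ, ← hK,
        FiniteField.pow_card]

theorem Setup.ker_free (hK : Fintype.card K = q ^ 3) :
    ∀ z ∈ (torusFin chevD4 auxD4 K).ker, T.S.twT z = z → z = 1 := by
  intro z hz hf
  obtain ⟨a, b, -⟩ := (T.mem_fixT hK).1 hf
  rw [mem_ker_torusFin certD4] at hz
  obtain ⟨e0, e1, e2, e3⟩ := tchar_eq z
  have h0 := (hz _ n0.2).symm.trans e0
  have h1 := (hz _ n1.2).symm.trans e1
  have h2 := (hz _ n2.2).symm.trans e2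
  have h3 := (hz _ n3.2).symm.trans e3
  rw [eq_comm, mul_inv_eq_one] at h0 h1 h2 h3
  -- the central coordinate is trivial
  have hc1 : z n1 = 1 := by
    have e : z n1 ^ 4 = z n1 ^ 3 := by
      calc z n1 ^ 4 = (z n1 ^ 2) ^ 2 := by group
        _ = z n0 ^ 2 * z n2 ^ 2 * z n3 ^ 2 := by rw [h1, mul_pow, mul_pow]
        _ = z n1 ^ 3 := by rw [h0, h2, h3, pow_succ, sq]
    exact mul_left_cancel (a := z n1 ^ 3) (by rw [← pow_succ, mul_one, e])
  rw [hc1] at h0
  -- so the first coordinate is a sign, fixed by Frobenius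
  have hK1 : ((z n0 : Kˣ) : K) = 1 ∨ ((z n0 : Kˣ) : K) = -1 := sq_eq_one_iff.1 (by
    rw [← Units.val_pow_eq_pow_val, h0, Units.val_one])
  have hq : z n0 ^ q = z n0 := by
    refine Units.ext ?_
    rw [Units.val_pow_eq_pow_val, ← T.phi n0]
    rcases hK1 with h | h <;> rw [h] <;> simp
  have a' : z n2 = z n0 := a.trans hq
  have b' : z n3 = z n0 := by rw [b, a', hq]
  have hc0 : z n0 = 1 := by
    have e : z n1 ^ 2 = z n0 * z n2 * z n3 := h1
    rw [hc1, a', b', one_pow, ← sq, h0, one_mul] at e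
    exact e.symm
  funext i
  rcases node_cases i with rfl | rfl | rfl | rfl
  exacts [hc0, hc1, a'.trans hc0, b'.trans hc0]

theorem Setup.obs (hK : Fintype.card K = q ^ 3) :
    ∀ c, T.S.twT c * c⁻¹ ∈ (torusFin chevD4 auxD4 K).ker →
      ∃ z ∈ (torusFin chevD4 auxD4 K).ker, c * z ∈ T.S.fixT :=
  T.S.obs_of_free (T.ker_free hK)

theorem Setup.H_le (hK : Fintype.card K = q ^ 3) :
    chevD4.diagonalSubgroup K ⊓ T.S.fix ≤ twistedD4 K q := by
  rw [T.S.H_fix_eq (T.obs hK)]
  rintro g ⟨c, hc', rfl⟩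
  have hdec : c = ([n1].map fun i => Pi.mulSingle i (c i)).prod *
      ([n0, n2, n3].map fun i => Pi.mulSingle i (c i)).prod := by
    funext i
    rcases node_cases i with rfl | rfl | rfl | rfl <;> simp [n0, n1, n2, n3, Pi.mulSingle_apply]
  rw [hdec, map_mul, torusFin_list, torusFin_list, ← T.nd0, ← T.nd1]
  refine mul_mem ((T.orth hK _).hg_mem c fun i _ => ?_) ((T.orth hK _).hg_mem c fun i _ => ?_) <;>
  exact (T.S.mem_fixT_iff).1 hc' i

/-- the group with its data -/
noncomputable def Setup.full (hK : Fintype.card K = q ^ 3) : Full T.O where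
  G1 := twistedD4 K q
  le_fix := T.le_fix hK
  nJ J := wg chevD4 K (T.O.wJ J)
  nJ_mem J := (T.orth hK J).ng_mem
  nJ_mon J := wg_mem_N certD4 _
  nJ_acts J := acts_wg certD4 _
  UJ_le J := (T.orth hK J).UJ_le (T.closed J)
  H_le := T.H_le hK
  piJ_inj J J' h := by
    have e : wAct auxD4 ((T.O.wJ J).map Fin.val) (chevD4.simple 1) =
        wAct auxD4 ((T.O.wJ J').map Fin.val) (chevD4.simple 1) := by
      rw [show chevD4.simple 1 = ((sR certD4 n1 : Fin chevD4.nroots) : ℕ) from rfl, ← wp_val certD4,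
        ← wp_val certD4]
      exact congrArg (fun π : Equiv.Perm (Fin chevD4.nroots) => ((π (sR certD4 n1) : Fin chevD4.nroots) : ℕ)) h
    rcases T.J_cases J with rfl | rfl <;> rcases T.J_cases J' with rfl | rfl <;>
      simp only [T.wJ0, T.wJ1] at e ⊢ <;> exact absurd e (by decide +kernel)
  nd_ne J := by rcases T.J_cases J with rfl | rfl <;> simp [T.nd0, T.nd1]
  faith J i hi := (T.orth hK J).faith (T.closed J) hi

theorem Setup.len0 : len chevD4 auxD4 (T.O.piJ T.J0) = 1 := by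
  show len chevD4 auxD4 (wp certD4 (T.O.wJ T.J0)) = _
  rw [(T.orb _).2]
  exact len_word (hc := certD4) (L := [1]) (by decide +kernel) (by decide +kernel)

theorem Setup.len1 : len chevD4 auxD4 (T.O.piJ T.J1) = 3 := by
  show len chevD4 auxD4 (wp certD4 (T.O.wJ T.J1)) = _
  rw [(T.orb _).2]
  exact len_word (hc := certD4) (L := [0, 2, 3]) (by decide +kernel) (by decide +kernel)

theorem Setup.card_UJ (hq : IsPrimePow q) (hK : Fintype.card K = q ^ 3) (J : Fin T.O.no) :
    Nat.card (fixU T.S (T.O.piJ J)) ^ 1 = q ^ len chevD4 auxD4 (T.O.piJ J) := by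
  rw [pow_one, (T.orth hK J).card_fixU (T.closed J)]
  rcases T.J_cases J with rfl | rfl
  · rw [T.len0, pow_one]
    refine Eq.trans ?_ (card_pow_eq_self (K := K) hq.two_le (sub_one_dvd hK))
    refine Nat.card_congr
      { toFun := fun t => ⟨t.1 n1, by
          have := t.2.1 n1 (by simp [T.nd0])
          rw [T.node1, T.phi] at this; exact this.symm⟩
        invFun := fun a => ⟨Pi.single n1 a.1, ?_, ?_⟩
        left_inv := ?_
        right_inv := fun a => Subtype.ext (by simp) }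
    · intro i hi
      simp only [T.nd0, List.mem_singleton] at hi
      subst hi
      simp [T.node1, T.phi, a.2]
    · intro i hi
      simp only [T.nd0, List.mem_singleton] at hi
      simp [hi]
    · intro t
      refine Subtype.ext (funext fun i => ?_)
      by_cases h : i = n1
      · subst h; simp
      · simp only [Pi.single_eq_of_ne h]
        exact (t.2.2 i (by simp [T.nd0, h])).symm
  · rw [T.len1, ← hK, ← Nat.card_eq_fintype_card]
    refine Nat.card_congr
      { toFun := fun t => t.1 n0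
        invFun := fun a => ⟨fun i => if i = n0 then a else if i = n2 then a ^ q else if i = n3 then a ^ (q ^ 2) else 0,
          ?_, ?_⟩
        left_inv := ?_
        right_inv := fun a => by simp }
    · intro i hi
      simp only [T.nd1, List.mem_cons, List.not_mem_nil, or_false] at hi
      rcases hi with rfl | rfl | rfl
      · rw [T.node0, T.phi]; simp [n0, n2]
      · rw [T.node2, T.phi]; simp [n0, n2, n3, ← pow_mul, sq]
      · rw [T.node3, T.phi]; simp [n0, n2, n3, ← pow_mul, ← pow_succ, ← hK, FiniteField.pow_card]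
    · intro i hi
      simp only [T.nd1, List.mem_cons, List.not_mem_nil, or_false, not_or] at hi
      simp [hi.1, hi.2.1, hi.2.2]
    · intro t
      refine Subtype.ext (funext fun i => ?_)
      have h2 : t.1 n2 = t.1 n0 ^ q := by
        have := t.2.1 n0 (by simp [T.nd1]); rwa [T.node0, T.phi] at this
      have h3 : t.1 n3 = t.1 n2 ^ q := by
        have := t.2.1 n2 (by simp [T.nd1]); rwa [T.node2, T.phi] at this
      rcases node_cases i with rfl | rfl | rfl | rfl
      · simp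
      · simp only [show n1 ≠ n0 by decide, show n1 ≠ n2 by decide, show n1 ≠ n3 by decide, if_false]
        exact (t.2.2 n1 (by simp [T.nd1, n0, n1, n2, n3])).symm
      · simp [show n2 ≠ n0 by decide, h2]
      · simp [show n3 ≠ n0 by decide, show n3 ≠ n2 by decide, h3, h2, ← pow_mul, sq]

theorem card_U (hq : IsPrimePow q) (hK : Fintype.card K = q ^ 3) :
    Nat.card ↥(chevD4.posUnipotent K ⊓ twistedD4 K q) = q ^ 12 := by
  obtain ⟨T⟩ := exists_setup hq hK
  obtain ⟨w, hw, hw'⟩ := exists_w0 T.S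
  have h := (T.full hK).toParts.card_fixU 1 q (T.card_UJ hq hK) hw
  rw [pow_one, fixU, Uw_w0 hw' certD4, (T.full hK).toParts.fix_eq, len_w0 hw' certD4] at h
  rw [show twistedD4 K q = (T.full hK).toParts.G1 from rfl, h]
  rfl

theorem card_H (hq : IsPrimePow q) (hK : Fintype.card K = q ^ 3) :
    Nat.card ↥(chevD4.diagonalSubgroup K ⊓ twistedD4 K q) = (q - 1) ^ 2 * (q ^ 2 + q + 1) := by
  obtain ⟨T⟩ := exists_setup hq hK
  have h := T.S.card_H_fix (T.obs hK)
  have hbot : (torusFin chevD4 auxD4 K).ker ⊓ T.S.fixT = ⊥ := by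
    rw [eq_bot_iff]
    exact fun z hz => T.ker_free hK z hz.1 hz.2
  rw [hbot, Subgroup.card_bot, mul_one] at h
  rw [show twistedD4 K q = (T.full hK).toParts.G1 from rfl, ← (T.full hK).toParts.fix_eq, h]
  have e : Nat.card ↥T.S.fixT = Nat.card ({u : Kˣ // u ^ (q - 1) = 1} × Kˣ) := Nat.card_congr
    { toFun := fun c => (⟨c.1 n1, by
        have := ((T.mem_fixT hK).1 c.2).2.2
        exact mul_right_cancel (b := c.1 n1) (by rw [← pow_succ, show q - 1 + 1 = q by have := hq.two_le; omega, this, one_mul])⟩,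
        c.1 n0)
      invFun := fun p => ⟨fun i => if i = n1 then p.1.1 else if i = n2 then p.2 ^ q else if i = n3 then p.2 ^ (q ^ 2) else p.2, by
        refine (T.mem_fixT hK).2 ⟨?_, ?_, ?_⟩
        · simp [n0, n1, n2, n3]
        · simp [n1, n2, n3, ← pow_mul, sq]
        · simp only [if_true]
          calc (p.1.1 : Kˣ) ^ q = p.1.1 ^ (q - 1 + 1) := by congr 1; have := hq.two_le; omega
            _ = p.1.1 := by rw [pow_succ, p.1.2, one_mul]⟩
      left_inv := fun c => by
        obtain ⟨a, b, -⟩ := (T.mem_fixT hK).1 c.2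
        refine Subtype.ext (funext fun i => ?_)
        rcases node_cases i with rfl | rfl | rfl | rfl
        · simp [n0, n1, n2, n3]
        · simp
        · simp [a, show n2 ≠ n1 by decide]
        · simp [b, a, show n3 ≠ n1 by decide, show n3 ≠ n2 by decide, ← pow_mul, sq]
      right_inv := fun p => by ext <;> simp [n0, n1, n2, n3] }
  rw [e, Nat.card_prod, card_units_pow_eq_one (sub_one_dvd hK), Nat.card_units, Nat.card_eq_fintype_card, hK]
  have h1 : q ^ 3 - 1 = (q - 1) * (q ^ 2 + q + 1) := by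
    zify [Nat.one_le_pow 3 q hq.pos, hq.one_lt.le]
    ring
  rw [h1]; ring

theorem card_group (hq : IsPrimePow q) (hK : Fintype.card K = q ^ 3) :
    Nat.card ↥(twistedD4 K q) = q ^ 12 * (q ^ 2 - 1) * (q ^ 6 - 1) * (q ^ 8 + q ^ 4 + 1) := by
  obtain ⟨T⟩ := exists_setup hq hK
  set P := (T.full hK).toParts
  have hG : twistedD4 K q = P.G1 := rfl
  have hU := card_U hq hK
  have hH := card_H hq hK
  rw [hG, ← P.fix_eq] at hU hH
  have e : ∑ π ∈ T.S.W1fin, Nat.card ↥(fixU T.S π) = (1 + q) * (1 + q ^ 3 + q ^ 4 + q ^ 7 + q ^ 8 + q ^ 11) := by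
    rw [Finset.sum_congr rfl fun π hπ =>
      show Nat.card ↥(fixU T.S π) = q ^ (len chevD4 auxD4 π / 1) by
        rw [Nat.div_one, ← P.card_fixU 1 q (T.card_UJ hq hK) (T.S.mem_W1fin.1 hπ), pow_one],
      twPoin_prod T.O T.no T.orb chainOK_D4 q]
    simp [chainD4, orbD4, expand]
    ring
  rw [hG, P.card_fix, card_fixB, hU, hH, e]
  zify [Nat.one_le_pow 2 q hq.pos, Nat.one_le_pow 6 q hq.pos, hq.one_lt.le]
  ring

theorem exists_bnPair (hq : IsPrimePow q) (hK : Fintype.card K = q ^ 3) :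
    ∃ P : Cfsg.BNPair ↥(twistedD4 K q),
      P.B = (chevD4.borelSubgroup K ⊓ twistedD4 K q).subgroupOf (twistedD4 K q) ∧
      P.N = (chevD4.monomialSubgroup K ⊓ twistedD4 K q).subgroupOf (twistedD4 K q) := by
  obtain ⟨T⟩ := exists_setup hq hK
  exact (T.full hK).exists_bnPair

theorem normalCore (hq : IsPrimePow q) (hK : Fintype.card K = q ^ 3) :
    ((chevD4.borelSubgroup K ⊓ twistedD4 K q).subgroupOf (twistedD4 K q)).normalCore = ⊥ := by
  obtain ⟨T⟩ := exists_setup hq hK
  exact (T.full hK).normalCore_eq_bot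

theorem weyl_hom (hq : IsPrimePow q) (hK : Fintype.card K = q ^ 3) :
    ∃ φ : ↥(chevD4.monomialSubgroup K ⊓ twistedD4 K q) →* (CoxeterMatrix.G₂).Group, Function.Surjective φ ∧
      φ.ker = (chevD4.diagonalSubgroup K ⊓ twistedD4 K q).subgroupOf (chevD4.monomialSubgroup K ⊓ twistedD4 K q) := by
  obtain ⟨T⟩ := exists_setup hq hK
  obtain ⟨φ, h1, h2⟩ := (T.full hK).exists_weyl_hom (M := chevD4.monomialSubgroup K ⊓ twistedD4 K q) rfl
  have hM : ∀ i j : Fin 2, coxOrdOK chevD4 auxD4
      ((List.replicate (CoxeterMatrix.G₂ i j) (orbD4.ws.getD i [] ++ orbD4.ws.getD j [])).flatten) = true := by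
    decide +kernel
  have hcard : Nat.card (CoxeterMatrix.G₂).Group = Nat.card ↥T.S.W1 := by
    rw [W1fin_card T.O T.no T.orb chainOK_D4]
    exact (card_coxeter certG2 (CoxeterMatrix.G₂) ord_G2 steps_G2).trans (by decide +kernel)
  obtain ⟨e⟩ := exists_coxeter_iso T.O T.no (n := 2) rfl T.orb (by decide +kernel) (CoxeterMatrix.G₂) hM hcard
  refine ⟨e.toMonoidHom.comp φ, e.surjective.comp h1, ?_⟩
  rw [show (e.toMonoidHom.comp φ).ker = φ.ker by ext; simp, h2]
  rfl

theorem perfect (hq : IsPrimePow q) (hK : Fintype.card K = q ^ 3) : commutator ↥(twistedD4 K q) = ⊤ := by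
  obtain ⟨T⟩ := exists_setup hq hK
  let P := (T.full hK).toParts
  refine perfect_of_gens ?_
  -- the outer orbit
  obtain ⟨u, hu⟩ := IsCyclic.exists_ofOrder_eq_natCard (α := Kˣ)
  have hu2 : u ^ 2 ≠ 1 := by
    intro h
    have := Nat.le_of_dvd two_pos (orderOf_dvd_of_pow_eq_one h)
    rw [hu, Nat.card_units, Nat.card_eq_fintype_card, hK] at this
    have := Nat.pow_le_pow_left hq.two_le 3
    omega
  let c : Fin chevD4.rank → Kˣ := fun i => if i = n1 then 1 else if i = n2 then u ^ q else if i = n3 then u ^ (q ^ 2) else u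
  have hc' : c ∈ T.S.fixT := (T.mem_fixT hK).2
    ⟨by simp [c, n0, n1, n2, n3], by simp [c, n1, n2, n3, ← pow_mul, sq], by simp [c]⟩
  have hcm : torusFin chevD4 auxD4 K c ∈ P.G1 := by
    refine P.H_le ?_
    rw [T.S.H_fix_eq (T.obs hK)]
    exact ⟨c, hc', rfl⟩
  have hpow : ∀ k : ℕ, ((u : K) ^ q ^ k) ^ 2 ≠ 1 := by
    intro k
    induction k with
    | zero => rw [pow_zero, pow_one, ← Units.val_pow_eq_pow_val, ne_eq, Units.val_eq_one]; exact hu2
    | succ k ih =>
      intro h
      rw [pow_succ q k, pow_mul, ← T.phi n0, ← map_pow] at h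
      exact ih ((T.S.phi n0).injective (h.trans (map_one _).symm))
  have hne : ∀ i ∈ T.O.nd T.J1, (tchar auxD4 c (chevD4.simple i) : K) ≠ 1 := by
    intro i hi
    simp only [T.nd1, List.mem_cons, List.not_mem_nil, or_false] at hi
    obtain ⟨e0, -, e2, e3⟩ := tchar_eq c
    rcases hi with rfl | rfl | rfl
    · rw [e0]; simpa [c, n0, n1, n2, n3] using hpow 0
    · rw [e2]; simpa [c, n0, n1, n2, n3] using hpow 1
    · rw [e3]; simpa [c, n0, n1, n2, n3] using hpow 2
  have hpos : ∀ J (t : Fin chevD4.rank → K), (∀ i ∈ T.O.nd J, t (T.S.node i) = T.S.phi i (t i)) →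
      orbProd T.O J true t ∈ ⁅P.G1, P.G1⁆ := by
    intro J t ht
    rcases T.J_cases J with rfl | rfl
    · have hgen : ∀ s : K, T.S.phi n1 s = s → xg chevD4 K (chevD4.simple n1) s ∈ P.G1 := fun s hs => by
        have := (T.orth hK T.J0).gen true (fun _ => s) fun i hi => by
          simp only [T.nd0, List.mem_singleton] at hi; subst hi; exact hs.symm
        simp only [T.nd0, sgnRoot, List.map_cons, List.map_nil, List.prod_singleton] at this
        exact this
      have := P.long_perfect (i := n1) (ia := n1) (ib := n1) hgen (hgen 1 (map_one _)) T.node1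
        (La := [n0, n2, n3]) (Lb := []) (Lk := [n1, n0, n2, n3])
        (word_mem_W1 symOK_D4 T.root (L := [0, 2, 3]) (by decide +kernel))
        (word_mem_W1 symOK_D4 T.root (L := []) (by decide +kernel))
        (word_mem_W1 symOK_D4 T.root (L := [1, 0, 2, 3]) (by decide +kernel))
        (c := -1) (by simp) (by rw [wp_val, wp_val]; decide +kernel) (by rw [wp_val, wp_val]; decide +kernel)
        (by rw [wp_val, wp_val, wp_val]; decide +kernel)
        (t := t n1) (by have := ht n1 (by simp [T.nd0]); rw [T.node1] at this; exact this.symm)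
      simpa [orbProd, T.nd0, sgnRoot] using this
    · exact (T.orth hK T.J1).torus_perfect hc' hcm hne ht
  refine gen_le (hc := certD4) fun w hw => ⟨word_ok hw, ?_⟩
  obtain ⟨J, b, t, ht, e⟩ := T.gen_eq_orbProd hK hw
  rw [e]
  cases b
  · exact P.neg_mem (T.orth hK J) (hpos J) (T.closed J) ((T.full hK).sq_piJ J) ht
  · exact hpos J t ht

theorem simple (hq : IsPrimePow q) (hK : Fintype.card K = q ^ 3) :
    IsSimpleGroup ↥(twistedD4 K q) ∧ ¬ IsMulCommutative ↥(twistedD4 K q) := by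
  obtain ⟨T⟩ := exists_setup hq hK
  refine (T.full hK).isSimple (borel_isSolvable certD4 K) T.J0 (fun J => J) ?_ (perfect hq hK)
  intro J hJ
  rcases T.J_cases J with rfl | rfl
  · exact absurd rfl hJ
  · refine ⟨T.J0, by simp [Setup.J0, Setup.J1], fun h => ?_⟩
    rw [Orbits.piJ, Orbits.piJ, T.wJ0, T.wJ1, ← wp_append, ← wp_append] at h
    have e := congrArg (fun π : Equiv.Perm (Fin chevD4.nroots) => ((π (sR certD4 n0) : Fin chevD4.nroots) : ℕ)) h
    simp only [wp_val] at e
    exact absurd e (by decide +kernel)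

end Cfsg.Lib.Tw.D4
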