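/-
Maps out of dihedral groups.
-/
import Mathlib

set_option autoImplicit false

namespace Cfsg.Lib.Tw

/-- two involutions whose product has order dividing `n` define a map from the dihedral group -/
theorem exists_dihedral_hom {G : Type*} [Group G] {n : ℕ} [NeZero n] (a b : G) (ha : a * a = 1) (hb : b * b = 1)
    (hab : (a * b) ^ n = 1) :
    ∃ f : DihedralGroup n →* G, f (DihedralGroup.sr 0) = a ∧ f (DihedralGroup.sr 1) = b := by
  set ρ := a * b with hρ
  let g : ZMod n → G := fun i => ρ ^ i.val
  have gadd : ∀ i j, g (i + j) = g i * g j := fun i j => by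
    simp only [g, ← pow_add, ZMod.val_add]
    exact (pow_eq_pow_mod _ hab).symm
  have g0 : g 0 = 1 := by simp [g]
  have ginv : ∀ i, g (-i) = (g i)⁻¹ := fun i => eq_inv_of_mul_eq_one_left (by rw [← gadd, neg_add_cancel, g0])
  have hainv : a⁻¹ = a := inv_eq_of_mul_eq_one_left ha
  have hbinv : b⁻¹ = b := inv_eq_of_mul_eq_one_left hb
  have hconj : ∀ i, a * g i * a = (g i)⁻¹ := fun i => by
    have e : a * ρ * a⁻¹ = ρ⁻¹ := by
      rw [hρ, mul_inv_rev, hainv, hbinv, ← mul_assoc, ha, one_mul]
    calc a * g i * a = (a * ρ * a⁻¹) ^ i.val := by rw [conj_pow, hainv]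
      _ = (g i)⁻¹ := by rw [e, inv_pow]
  let f : DihedralGroup n → G := fun x => match x with
    | DihedralGroup.r i => g i
    | DihedralGroup.sr i => a * g i
  have hf : ∀ x y, f (x * y) = f x * f y := by
    rintro (i | i) (j | j)
    · rw [DihedralGroup.r_mul_r]; exact gadd i j
    · rw [DihedralGroup.r_mul_sr]
      show a * g (j - i) = g i * (a * g j)
      rw [sub_eq_neg_add, gadd, ginv, ← hconj]
      simp only [← mul_assoc]
      rw [ha, one_mul]
    · rw [DihedralGroup.sr_mul_r]
      show a * g (i + j) = a * g i * g j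
      rw [gadd, mul_assoc]
    · rw [DihedralGroup.sr_mul_sr]
      show g (j - i) = a * g i * (a * g j)
      rw [sub_eq_neg_add, gadd, ginv, ← mul_assoc, hconj]
  refine ⟨MonoidHom.mk' f hf, ?_, ?_⟩
  · show a * g 0 = a
    rw [g0, mul_one]
  · show a * g 1 = b
    rcases eq_or_ne n 1 with rfl | hn
    · rw [pow_one, hρ] at hab
      rw [show g 1 = g 0 from congrArg g (Subsingleton.elim _ _), g0, mul_one]
      exact (inv_eq_of_mul_eq_one_right hab).symm.trans hainv |>.symm
    · haveI : Fact (1 < n) := ⟨by have := NeZero.ne n; omega⟩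
      simp only [g, ZMod.val_one, pow_one, hρ, ← mul_assoc, ha, one_mul]

end Cfsg.Lib.Tw
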