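/-
The groups 2E6(q).
-/
import Cfsg.Agent.Lib.Tw.Tools
import Cfsg.Agent.Lib.Chev.All
import Cfsg.Prelude.Def_LieTwisted

set_option autoImplicit false

namespace Cfsg.Lib.Tw.E6

open Cfsg.Lie Cfsg.Lib.Chev

variable {K : Type*} [Field K] [Fintype K] {q : ℕ}

/-- the first node -/
def n0 : Fin chevE6.rank := ⟨0, by decide +kernel⟩
/-- the second node -/
def n1 : Fin chevE6.rank := ⟨1, by decide +kernel⟩
/-- the third node -/
def n2 : Fin chevE6.rank := ⟨2, by decide +kernel⟩
/-- the fourth node -/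
def n3 : Fin chevE6.rank := ⟨3, by decide +kernel⟩
/-- the fifth node -/
def n4 : Fin chevE6.rank := ⟨4, by decide +kernel⟩
/-- the sixth node -/
def n5 : Fin chevE6.rank := ⟨5, by decide +kernel⟩

theorem node_cases (i : Fin chevE6.rank) : i = n0 ∨ i = n1 ∨ i = n2 ∨ i = n3 ∨ i = n4 ∨ i = n5 := by
  have hr : chevE6.rank = 6 := by decide +kernel
  obtain ⟨i, hi⟩ := i
  rw [hr] at hi
  simp only [n0, n1, n2, n3, n4, n5, Fin.ext_iff]
  omega

/-- the twisting endomorphism with its orbits -/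
structure Setup (K : Type*) [Field K] (q : ℕ) where
  /-- the endomorphism -/
  S : Sigma certE6 K
  /-- the orbits -/
  O : Orbits S
  no : O.no = orbE6.os.length
  node : S.node = nodePerm symOK_E6
  root : S.root = rootPerm symOK_E6
  phi : ∀ i t, S.phi i t = t ^ q
  orb : ∀ J, O.nd J = toFins chevE6.rank (orbE6.os.getD (Fin.cast no J) []) ∧
    O.wJ J = toFins chevE6.rank (orbE6.ws.getD (Fin.cast no J) [])

theorem exists_setup (hq : IsPrimePow q) (hK : Fintype.card K = q ^ 2) : Nonempty (Setup K q) := by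
  obtain ⟨p, a, hp, ha, rfl⟩ := (isPrimePow_nat_iff q).1 hq
  rw [← pow_mul] at hK
  obtain ⟨θ, hθ⟩ := exists_qAut (a := a) hp hK (by omega)
  have hinj : ∀ g ∈ chevE6.group K, subMat chevE6 isoE6.li (isoOK_spec isoOK_E6).2.2.2.1 []
      (g : Matrix chevE6.Idx chevE6.Idx K) = 1 → g = 1 := fun g _ h =>
    subMat_full _ (isoOK_spec isoOK_E6).1 (by decide +kernel) h
  obtain ⟨S, h1, h2, h3⟩ := exists_sigma certE6 isoOK_E6 symOK_E6 (Nat.cast_zero (R := K)) hinj θ (fun _ => θ)
    (fun i t => by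
      have hl : ∀ j : Fin chevE6.rank, isoE6.lam.getD j 0 = 1 := by decide +kernel
      rw [hl, pow_one])
  obtain ⟨O, e, hO⟩ := exists_orbits symOK_E6 orbOK_E6 h1 h2
  exact ⟨⟨S, O, e, h1, h2, fun i t => by rw [h3, hθ], hO⟩⟩

theorem sub_one_dvd {N k : ℕ} (h : N = q ^ k) : q - 1 ∣ N - 1 := by
  subst h
  simpa using Nat.sub_dvd_pow_sub_pow q 1 k

theorem pow_qq (hK : Fintype.card K = q ^ 2) (t : K) : (t ^ q) ^ q = t := by
  rw [← pow_mul, ← sq, ← hK, FiniteField.pow_card]

variable (T : Setup K q)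

/-- the orbit of the end nodes -/
def Setup.J0 : Fin T.O.no := ⟨0, by rw [T.no]; decide +kernel⟩
/-- the orbit of the inner pair -/
def Setup.J1 : Fin T.O.no := ⟨1, by rw [T.no]; decide +kernel⟩
/-- the orbit of the branch node -/
def Setup.J2 : Fin T.O.no := ⟨2, by rw [T.no]; decide +kernel⟩
/-- the orbit of the short arm -/
def Setup.J3 : Fin T.O.no := ⟨3, by rw [T.no]; decide +kernel⟩

omit [Fintype K] in
theorem Setup.J_cases (J : Fin T.O.no) : J = T.J0 ∨ J = T.J1 ∨ J = T.J2 ∨ J = T.J3 := by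
  obtain ⟨J, hJ⟩ := J
  rw [T.no, show orbE6.os.length = 4 from rfl] at hJ
  simp only [Setup.J0, Setup.J1, Setup.J2, Setup.J3, Fin.ext_iff]
  omega

omit [Fintype K] in
theorem Setup.nd0 : T.O.nd T.J0 = [n0, n5] := by rw [(T.orb _).1]; rfl
omit [Fintype K] in
theorem Setup.nd1 : T.O.nd T.J1 = [n2, n4] := by rw [(T.orb _).1]; rfl
omit [Fintype K] in
theorem Setup.nd2 : T.O.nd T.J2 = [n3] := by rw [(T.orb _).1]; rfl
omit [Fintype K] in
theorem Setup.nd3 : T.O.nd T.J3 = [n1] := by rw [(T.orb _).1]; rfl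
omit [Fintype K] in
theorem Setup.wJ0 : T.O.wJ T.J0 = [n0, n5] := by rw [(T.orb _).2]; rfl
omit [Fintype K] in
theorem Setup.wJ1 : T.O.wJ T.J1 = [n2, n4] := by rw [(T.orb _).2]; rfl
omit [Fintype K] in
theorem Setup.wJ2 : T.O.wJ T.J2 = [n3] := by rw [(T.orb _).2]; rfl
omit [Fintype K] in
theorem Setup.wJ3 : T.O.wJ T.J3 = [n1] := by rw [(T.orb _).2]; rfl

omit [Fintype K] in
theorem Setup.node0 : T.S.node n0 = n5 := by rw [T.node]; exact Fin.ext rfl
omit [Fintype K] in
theorem Setup.node1 : T.S.node n1 = n1 := by rw [T.node]; exact Fin.ext rfl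
omit [Fintype K] in
theorem Setup.node2 : T.S.node n2 = n4 := by rw [T.node]; exact Fin.ext rfl
omit [Fintype K] in
theorem Setup.node3 : T.S.node n3 = n3 := by rw [T.node]; exact Fin.ext rfl
omit [Fintype K] in
theorem Setup.node4 : T.S.node n4 = n2 := by rw [T.node]; exact Fin.ext rfl
omit [Fintype K] in
theorem Setup.node5 : T.S.node n5 = n0 := by rw [T.node]; exact Fin.ext rfl

omit [Fintype K] in
theorem Setup.closed (J : Fin T.O.no) : ∀ i ∈ T.O.nd J, T.S.node i ∈ T.O.nd J := by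
  rcases T.J_cases J with rfl | rfl | rfl | rfl
  · simp [T.nd0, T.node0, T.node5]
  · simp [T.nd1, T.node2, T.node4]
  · simp [T.nd2, T.node3]
  · simp [T.nd3, T.node1]

omit [Fintype K] in
theorem word_ok {w : List (ℕ × K)} (hw : w ∈ e6Words K q) : ∀ p ∈ w, p.1 < chevE6.nroots := by
  have hn : chevE6.nroots = 72 := by decide +kernel
  rcases hw with ⟨t, -, r, hr, rfl⟩ | ⟨t, rs, hrs, rfl⟩
  · simp only [List.mem_cons, List.not_mem_nil, or_false] at hr
    rcases hr with rfl | rfl | rfl | rfl <;> simp [e6p2, e6m2, e6p4, e6m4, hn]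
  · simp only [List.mem_cons, List.not_mem_nil, or_false] at hrs
    rcases hrs with rfl | rfl | rfl | rfl <;>
      simp [e6p1, e6p6, e6m1, e6m6, e6p3, e6p5, e6m3, e6m5, hn]

omit [Fintype K] in
theorem single_mem {i : Fin chevE6.rank} (hi : i = n1 ∨ i = n3) (b : Bool) {t : K} (ht : t ^ q = t) :
    xg chevE6 K (sgnRoot chevE6 b i) t ∈ twistedE6 K q := by
  have hw : [(sgnRoot chevE6 b i, t)] ∈ e6Words K q := by
    refine Or.inl ⟨t, ht, sgnRoot chevE6 b i, ?_, rfl⟩
    rcases hi with rfl | rfl <;> cases b <;> decide +kernel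
  have := wordProd_mem_gen (hc := certE6) hw (word_ok hw)
  simpa [wordProd, twistedE6] using this

omit [Fintype K] in
theorem pair_mem {i j : Fin chevE6.rank} (hij : i = n0 ∧ j = n5 ∨ i = n2 ∧ j = n4) (b : Bool) (t : K) :
    xg chevE6 K (sgnRoot chevE6 b i) t * xg chevE6 K (sgnRoot chevE6 b j) (t ^ q) ∈ twistedE6 K q := by
  have hw : [(sgnRoot chevE6 b i, t), (sgnRoot chevE6 b j, t ^ q)] ∈ e6Words K q := by
    refine Or.inr ⟨t, (sgnRoot chevE6 b i, sgnRoot chevE6 b j), ?_, rfl⟩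
    rcases hij with ⟨rfl, rfl⟩ | ⟨rfl, rfl⟩ <;> cases b <;> decide +kernel
  have := wordProd_mem_gen (hc := certE6) hw (word_ok hw)
  simpa [wordProd, twistedE6] using this

omit [Fintype K] in
theorem Setup.orth (J : Fin T.O.no) : Orth T.O J (twistedE6 K q) := by
  rcases T.J_cases J with rfl | rfl | rfl | rfl
  · refine ⟨by rw [T.wJ0, T.nd0], by rw [T.nd0]; decide +kernel, fun b t ht => ?_⟩
    have h := ht n0 (by simp [T.nd0])
    rw [T.node0, T.phi] at h
    simpa [T.nd0, h] using pair_mem (q := q) (Or.inl ⟨rfl, rfl⟩) b (t n0)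
  · refine ⟨by rw [T.wJ1, T.nd1], by rw [T.nd1]; decide +kernel, fun b t ht => ?_⟩
    have h := ht n2 (by simp [T.nd1])
    rw [T.node2, T.phi] at h
    simpa [T.nd1, h] using pair_mem (q := q) (Or.inr ⟨rfl, rfl⟩) b (t n2)
  · refine ⟨by rw [T.wJ2, T.nd2], by rw [T.nd2]; decide +kernel, fun b t ht => ?_⟩
    have h := ht n3 (by simp [T.nd2])
    rw [T.node3, T.phi] at h
    simpa [T.nd2] using single_mem (q := q) (Or.inr rfl) b h.symm
  · refine ⟨by rw [T.wJ3, T.nd3], by rw [T.nd3]; decide +kernel, fun b t ht => ?_⟩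
    have h := ht n1 (by simp [T.nd3])
    rw [T.node1, T.phi] at h
    simpa [T.nd3] using single_mem (q := q) (Or.inl rfl) b h.symm

theorem Setup.gen_eq_orbProd (hK : Fintype.card K = q ^ 2) {w : List (ℕ × K)} (hw : w ∈ e6Words K q) :
    ∃ J b t, (∀ i ∈ T.O.nd J, t (T.S.node i) = T.S.phi i (t i)) ∧ wordProd chevE6 w = orbProd T.O J b t := by
  rcases hw with ⟨t, ht, r, hr, rfl⟩ | ⟨t, rs, hrs, rfl⟩
  · have key : ∃ b, r = sgnRoot chevE6 b n1 ∨ r = sgnRoot chevE6 b n3 := by
      simp only [List.mem_cons, List.not_mem_nil, or_false] at hr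
      rcases hr with rfl | rfl | rfl | rfl
      exacts [⟨true, Or.inl (by decide +kernel)⟩, ⟨false, Or.inl (by decide +kernel)⟩,
        ⟨true, Or.inr (by decide +kernel)⟩, ⟨false, Or.inr (by decide +kernel)⟩]
    obtain ⟨b, rfl | rfl⟩ := key
    · refine ⟨T.J3, b, fun _ => t, fun i _ => by rw [T.phi, ht], ?_⟩
      simp [wordProd, orbProd, T.nd3]
    · refine ⟨T.J2, b, fun _ => t, fun i _ => by rw [T.phi, ht], ?_⟩
      simp [wordProd, orbProd, T.nd2]
  · have key : ∃ b, rs = (sgnRoot chevE6 b n0, sgnRoot chevE6 b n5) ∨ rs = (sgnRoot chevE6 b n2, sgnRoot chevE6 b n4) := by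
      simp only [List.mem_cons, List.not_mem_nil, or_false] at hrs
      rcases hrs with rfl | rfl | rfl | rfl
      exacts [⟨true, Or.inl (by decide +kernel)⟩, ⟨false, Or.inl (by decide +kernel)⟩,
        ⟨true, Or.inr (by decide +kernel)⟩, ⟨false, Or.inr (by decide +kernel)⟩]
    let f : Fin chevE6.rank → K := fun i => if i = n5 ∨ i = n4 then t ^ q else t
    have hf0 : f n0 = t := by simp [f, n0, n4, n5]
    have hf5 : f n5 = t ^ q := by simp [f]
    have hf2 : f n2 = t := by simp [f, n2, n4, n5]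
    have hf4 : f n4 = t ^ q := by simp [f]
    obtain ⟨b, rfl | rfl⟩ := key
    · refine ⟨T.J0, b, f, fun i hi => ?_, ?_⟩
      · simp only [T.nd0, List.mem_cons, List.not_mem_nil, or_false] at hi
        rcases hi with rfl | rfl
        · rw [T.node0, T.phi, hf0, hf5]
        · rw [T.node5, T.phi, hf5, hf0, pow_qq hK]
      · simp [wordProd, orbProd, T.nd0, hf0, hf5]
    · refine ⟨T.J1, b, f, fun i hi => ?_, ?_⟩
      · simp only [T.nd1, List.mem_cons, List.not_mem_nil, or_false] at hi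
        rcases hi with rfl | rfl
        · rw [T.node2, T.phi, hf2, hf4]
        · rw [T.node4, T.phi, hf4, hf2, pow_qq hK]
      · simp [wordProd, orbProd, T.nd1, hf2, hf4]

theorem Setup.le_fix (hK : Fintype.card K = q ^ 2) : twistedE6 K q ≤ T.S.fix := by
  refine gen_le (hc := certE6) fun w hw => ⟨word_ok hw, ?_⟩
  obtain ⟨J, b, t, ht, e⟩ := T.gen_eq_orbProd hK hw
  rw [e]
  exact ⟨orbProd_mem_group b t, orbProd_app (T.orth J).ok b (T.closed J) ht⟩

omit [Fintype K] in
theorem cA_table : ∀ k j : Fin chevE6.rank, auxE6.cA k (chevE6.simple j) =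
    ([[2, 0, -1, 0, 0, 0], [0, 2, 0, -1, 0, 0], [-1, 0, 2, -1, 0, 0], [0, -1, -1, 2, -1, 0],
      [0, 0, 0, -1, 2, -1], [0, 0, 0, 0, -1, 2]].getD k []).getD j 0 := by decide +kernel

omit [Fintype K] in
theorem tchar_eq (c : Fin chevE6.rank → Kˣ) :
    tchar auxE6 c (chevE6.simple n0) = c n0 ^ 2 * (c n2)⁻¹ ∧
    tchar auxE6 c (chevE6.simple n1) = c n1 ^ 2 * (c n3)⁻¹ ∧
    tchar auxE6 c (chevE6.simple n2) = c n2 ^ 2 * (c n0 * c n3)⁻¹ ∧
    tchar auxE6 c (chevE6.simple n3) = c n3 ^ 2 * (c n1 * c n2 * c n4)⁻¹ ∧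
    tchar auxE6 c (chevE6.simple n4) = c n4 ^ 2 * (c n3 * c n5)⁻¹ ∧
    tchar auxE6 c (chevE6.simple n5) = c n5 ^ 2 * (c n4)⁻¹ := by
  have e : ∀ j : Fin chevE6.rank, tchar auxE6 c (chevE6.simple j) =
      c n0 ^ auxE6.cA n0 (chevE6.simple j) * c n1 ^ auxE6.cA n1 (chevE6.simple j) *
        c n2 ^ auxE6.cA n2 (chevE6.simple j) * c n3 ^ auxE6.cA n3 (chevE6.simple j) *
        c n4 ^ auxE6.cA n4 (chevE6.simple j) * c n5 ^ auxE6.cA n5 (chevE6.simple j) := fun j =>
    Fin.prod_univ_six fun k : Fin 6 => c k ^ auxE6.cA k (chevE6.simple j)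
  refine ⟨?_, ?_, ?_, ?_, ?_, ?_⟩ <;>
  · rw [e, cA_table, cA_table, cA_table, cA_table, cA_table, cA_table]
    simp [n0, n1, n2, n3, n4, n5, mul_inv_rev, mul_comm, mul_left_comm, mul_assoc]

/-- the kernel of the torus map -/
theorem ker_iff {z : Fin chevE6.rank → Kˣ} : z ∈ (torusFin chevE6 auxE6 K).ker ↔
    z n0 ^ 3 = 1 ∧ z n1 = 1 ∧ z n2 = z n0 ^ 2 ∧ z n3 = 1 ∧ z n4 = z n0 ∧ z n5 = z n0 ^ 2 := by
  obtain ⟨e0, e1, e2, e3, e4, e5⟩ := tchar_eq z
  rw [mem_ker_torusFin certE6]
  constructor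
  · intro hz
    have h0 := (hz _ n0.2).symm.trans e0
    have h1 := (hz _ n1.2).symm.trans e1
    have h2 := (hz _ n2.2).symm.trans e2
    have h3 := (hz _ n3.2).symm.trans e3
    have h4 := (hz _ n4.2).symm.trans e4
    have h5 := (hz _ n5.2).symm.trans e5
    rw [eq_comm, mul_inv_eq_one] at h0 h1 h2 h3 h4 h5
    have a3 : z n3 = z n0 ^ 3 := by
      have : z n0 * z n3 = z n0 * z n0 ^ 3 := by rw [← h2, ← h0, ← pow_mul, ← pow_succ']
      exact mul_left_cancel this
    have b3 : z n3 = z n5 ^ 3 := by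
      have : z n3 * z n5 = z n5 ^ 3 * z n5 := by rw [← h4, ← h5, ← pow_mul, ← pow_succ]
      exact mul_right_cancel this
    have hb : z n5 = z n0 ^ 2 := by
      have this : z n0 ^ 10 * z n5 = z n0 ^ 10 * z n0 ^ 2 :=
        calc z n0 ^ 10 * z n5 = z n0 ^ 3 * (z n0 ^ 2) ^ 2 * (z n0 ^ 3 * z n5) := by group
          _ = z n3 * z n2 ^ 2 * (z n5 ^ 3 * z n5) := by rw [← b3, a3, h0]
          _ = z n1 ^ 2 * z n2 ^ 2 * z n4 ^ 2 := by rw [h1, ← h5, ← pow_mul, ← pow_succ]
          _ = (z n3 ^ 2) ^ 2 := by rw [h3, mul_pow, mul_pow]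
          _ = z n0 ^ 10 * z n0 ^ 2 := by rw [a3]; group
      exact mul_left_cancel this
    have hc : z n0 ^ 3 = 1 := by
      have : z n0 ^ 3 * z n0 ^ 3 = z n0 ^ 3 * 1 := by
        rw [← pow_add, mul_one]
        calc z n0 ^ (3 + 3) = z n5 ^ 3 := by rw [hb, ← pow_mul]
          _ = z n0 ^ 3 := by rw [← b3, a3]
      exact mul_left_cancel this
    have hz4 : z n4 = z n0 := by rw [← h5, hb, ← pow_mul, show 2 * 2 = 3 + 1 from rfl, pow_succ, hc, one_mul]
    refine ⟨hc, ?_, h0.symm, a3.trans hc, hz4, hb⟩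
    rw [a3.trans hc, one_pow, ← h0, hz4, mul_assoc, ← pow_succ, hc, mul_one] at h3
    exact h3.symm
  · rintro ⟨hc, a1, a2, a3, a4, a5⟩ j hj
    have h4 : z n0 ^ 4 = z n0 := by rw [pow_succ, hc, one_mul]
    rcases node_cases ⟨j, hj⟩ with h | h | h | h | h | h <;> obtain rfl := congrArg Fin.val h
    · exact e0.trans (mul_inv_eq_one.2 a2.symm)
    · exact e1.trans (mul_inv_eq_one.2 (by rw [a1, a3, one_pow]))
    · exact e2.trans (mul_inv_eq_one.2 (by rw [a2, a3, mul_one, ← pow_mul, h4]))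
    · exact e3.trans (mul_inv_eq_one.2 (by rw [a1, a2, a3, a4, one_pow, one_mul, ← pow_succ, hc]))
    · exact e4.trans (mul_inv_eq_one.2 (by rw [a3, a4, a5, one_mul]))
    · exact e5.trans (mul_inv_eq_one.2 (by rw [a4, a5, ← pow_mul, h4]))

theorem Setup.mem_fixT (hK : Fintype.card K = q ^ 2) {c : Fin chevE6.rank → Kˣ} :
    c ∈ T.S.fixT ↔ c n5 = c n0 ^ q ∧ c n4 = c n2 ^ q ∧ c n1 ^ q = c n1 ∧ c n3 ^ q = c n3 := by
  rw [T.S.mem_fixT_iff]
  constructor
  · intro h
    have a := h n0; have b := h n2; have d := h n1; have e := h n3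
    rw [T.node0, T.phi] at a; rw [T.node2, T.phi] at b; rw [T.node1, T.phi] at d; rw [T.node3, T.phi] at e
    exact ⟨Units.ext (by simpa using a), Units.ext (by simpa using b), Units.ext (by simpa using d.symm),
      Units.ext (by simpa using e.symm)⟩
  · rintro ⟨a, b, d, e⟩ i
    rcases node_cases i with rfl | rfl | rfl | rfl | rfl | rfl
    · rw [T.node0, T.phi, a, Units.val_pow_eq_pow_val]
    · rw [T.node1, T.phi, ← Units.val_pow_eq_pow_val, d]
    · rw [T.node2, T.phi, b, Units.val_pow_eq_pow_val]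
    · rw [T.node3, T.phi, ← Units.val_pow_eq_pow_val, e]
    · rw [T.node4, T.phi, b, Units.val_pow_eq_pow_val, pow_qq hK]
    · rw [T.node5, T.phi, a, Units.val_pow_eq_pow_val, pow_qq hK]

theorem Setup.twT_twT (hK : Fintype.card K = q ^ 2) (c : Fin chevE6.rank → Kˣ) : T.S.twT (T.S.twT c) = c := by
  funext i
  refine Units.ext ?_
  have hnn : T.S.node (T.S.node i) = i := by
    rcases node_cases i with rfl | rfl | rfl | rfl | rfl | rfl <;>
      simp [T.node0, T.node1, T.node2, T.node3, T.node4, T.node5]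
  conv_lhs => rw [← hnn]
  rw [T.S.twT_apply, T.S.twT_apply, T.phi, T.phi, pow_qq hK]

theorem Setup.obs (hK : Fintype.card K = q ^ 2) :
    ∀ c, T.S.twT c * c⁻¹ ∈ (torusFin chevE6 auxE6 K).ker →
      ∃ z ∈ (torusFin chevE6 auxE6 K).ker, c * z ∈ T.S.fixT := by
  intro c hc'
  set z₀ := T.S.twT c * c⁻¹ with hz₀
  have hinv : T.S.twT z₀ = z₀⁻¹ := by
    show T.S.twTHom (T.S.twT c * c⁻¹) = _
    rw [map_mul, map_inv]
    show T.S.twT (T.S.twT c) * (T.S.twT c)⁻¹ = _
    rw [T.twT_twT hK, hz₀, mul_inv_rev, inv_inv]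
  have h3 : z₀ ^ 3 = 1 := by
    obtain ⟨hc3, a1, a2, a3, a4, a5⟩ := ker_iff.1 hc'
    have h6 : (z₀ n0 ^ 2) ^ 3 = 1 := by rw [← pow_mul, mul_comm, pow_mul, hc3, one_pow]
    funext i
    rcases node_cases i with rfl | rfl | rfl | rfl | rfl | rfl <;>
      simp [hc3, a1, a2, a3, a4, a5, h6]
  refine ⟨z₀⁻¹, inv_mem hc', T.S.mem_fixT.2 ?_⟩
  show T.S.twTHom (c * z₀⁻¹) = c * z₀⁻¹
  rw [map_mul, map_inv]
  show T.S.twT c * (T.S.twT z₀)⁻¹ = c * z₀⁻¹
  rw [hinv, inv_inv, show T.S.twT c = z₀ * c by rw [hz₀, inv_mul_cancel_right]]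
  have hz : z₀⁻¹ = z₀ * z₀ := inv_eq_of_mul_eq_one_left (by rw [← pow_two, ← pow_succ, h3])
  rw [hz, mul_comm z₀ c, mul_assoc]

theorem Setup.H_le (hK : Fintype.card K = q ^ 2) :
    chevE6.diagonalSubgroup K ⊓ T.S.fix ≤ twistedE6 K q := by
  rw [T.S.H_fix_eq (T.obs hK)]
  rintro g ⟨c, hc', rfl⟩
  have hdec : c = ([n0, n5].map fun i => Pi.mulSingle i (c i)).prod *
      ([n2, n4].map fun i => Pi.mulSingle i (c i)).prod * ([n3].map fun i => Pi.mulSingle i (c i)).prod *
      ([n1].map fun i => Pi.mulSingle i (c i)).prod := by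
    funext i
    rcases node_cases i with rfl | rfl | rfl | rfl | rfl | rfl <;> simp [n0, n1, n2, n3, n4, n5]
  rw [hdec, map_mul, map_mul, map_mul, torusFin_list, torusFin_list, torusFin_list, torusFin_list, ← T.nd0, ← T.nd1,
    ← T.nd2, ← T.nd3]
  refine mul_mem (mul_mem (mul_mem ((T.orth _).hg_mem c fun i _ => ?_) ((T.orth _).hg_mem c fun i _ => ?_))
    ((T.orth _).hg_mem c fun i _ => ?_)) ((T.orth _).hg_mem c fun i _ => ?_) <;>
  exact (T.S.mem_fixT_iff).1 hc' i

/-- the group with its data -/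
noncomputable def Setup.full (hK : Fintype.card K = q ^ 2) : Full T.O where
  G1 := twistedE6 K q
  le_fix := T.le_fix hK
  nJ J := wg chevE6 K (T.O.wJ J)
  nJ_mem J := (T.orth J).ng_mem
  nJ_mon J := wg_mem_N certE6 _
  nJ_acts J := acts_wg certE6 _
  UJ_le J := (T.orth J).UJ_le (T.closed J)
  H_le := T.H_le hK
  piJ_inj J J' h := by
    have e : ((List.finRange chevE6.rank).map fun i : Fin chevE6.rank =>
          wAct auxE6 ((T.O.wJ J).map Fin.val) (chevE6.simple i)) =
        (List.finRange chevE6.rank).map fun i : Fin chevE6.rank =>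
          wAct auxE6 ((T.O.wJ J').map Fin.val) (chevE6.simple i) := by
      refine List.map_congr_left fun i _ => ?_
      rw [show chevE6.simple i = ((sR certE6 i : Fin chevE6.nroots) : ℕ) from rfl, ← wp_val certE6,
        ← wp_val certE6]
      exact congrArg (fun π : Equiv.Perm (Fin chevE6.nroots) => ((π (sR certE6 i) : Fin chevE6.nroots) : ℕ)) h
    rcases T.J_cases J with rfl | rfl | rfl | rfl <;> rcases T.J_cases J' with rfl | rfl | rfl | rfl <;>
      simp only [T.wJ0, T.wJ1, T.wJ2, T.wJ3] at e ⊢ <;> exact absurd e (by decide +kernel)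
  nd_ne J := by rcases T.J_cases J with rfl | rfl | rfl | rfl <;> simp [T.nd0, T.nd1, T.nd2, T.nd3]
  faith J i hi := (T.orth J).faith (T.closed J) hi

theorem Setup.card_UJ (hq : IsPrimePow q) (hK : Fintype.card K = q ^ 2) (J : Fin T.O.no) :
    Nat.card (fixU T.S (T.O.piJ J)) ^ 1 = q ^ len chevE6 auxE6 (T.O.piJ J) := by
  rw [pow_one, (T.orth J).card_fixU (T.closed J)]
  have single : ∀ (n : Fin chevE6.rank), T.S.node n = n → T.O.nd J = [n] →
      Nat.card {t : Fin chevE6.rank → K //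
        (∀ i ∈ T.O.nd J, t (T.S.node i) = T.S.phi i (t i)) ∧ ∀ i ∉ T.O.nd J, t i = 0} = q := by
    intro n hn hnd
    refine Eq.trans ?_ (card_pow_eq_self (K := K) hq.two_le (sub_one_dvd hK))
    refine Nat.card_congr
      { toFun := fun t => ⟨t.1 n, by
          have := t.2.1 n (by simp [hnd])
          rw [hn, T.phi] at this; exact this.symm⟩
        invFun := fun a => ⟨Pi.single n a.1, ?_, ?_⟩
        left_inv := ?_
        right_inv := fun a => Subtype.ext (by simp) }
    · intro i hi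
      rw [hnd, List.mem_singleton] at hi
      subst hi
      simp [hn, T.phi, a.2]
    · intro i hi
      rw [hnd, List.mem_singleton] at hi
      simp [hi]
    · intro t
      refine Subtype.ext (funext fun i => ?_)
      by_cases h : i = n
      · subst h; simp
      · simp only [Pi.single_eq_of_ne h]
        exact (t.2.2 i (by simp [hnd, h])).symm
  have pair : ∀ (n m : Fin chevE6.rank), m ≠ n → T.S.node n = m → T.S.node m = n → T.O.nd J = [n, m] →
      Nat.card {t : Fin chevE6.rank → K //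
        (∀ i ∈ T.O.nd J, t (T.S.node i) = T.S.phi i (t i)) ∧ ∀ i ∉ T.O.nd J, t i = 0} = q ^ 2 := by
    intro n m hne hn hm hnd
    rw [← hK, ← Nat.card_eq_fintype_card]
    refine Nat.card_congr
      { toFun := fun t => t.1 n
        invFun := fun a => ⟨fun i => if i = n then a else if i = m then a ^ q else 0, ?_, ?_⟩
        left_inv := ?_
        right_inv := fun a => by simp }
    · intro i hi
      simp only [hnd, List.mem_cons, List.not_mem_nil, or_false] at hi
      rcases hi with rfl | rfl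
      · rw [hn, T.phi]; simp [hne]
      · rw [hm, T.phi]; simp [hne, pow_qq hK]
    · intro i hi
      simp only [hnd, List.mem_cons, List.not_mem_nil, or_false, not_or] at hi
      simp [hi.1, hi.2]
    · intro t
      refine Subtype.ext (funext fun i => ?_)
      have h2 : t.1 m = t.1 n ^ q := by
        have := t.2.1 n (by simp [hnd]); rwa [hn, T.phi] at this
      by_cases h1 : i = n
      · subst h1; simp
      by_cases h3 : i = m
      · subst h3; simp [hne, h2]
      · simp only [if_neg h1, if_neg h3]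
        exact (t.2.2 i (by simp [hnd, h1, h3])).symm
  have hlen : ∀ L : List ℕ, T.O.wJ J = toFins chevE6.rank L → (∀ i ∈ L, i < chevE6.rank) →
      redOK chevE6 auxE6 L = true → len chevE6 auxE6 (T.O.piJ J) = L.length := fun L hL h1 h2 => by
    show len chevE6 auxE6 (wp certE6 (T.O.wJ J)) = _
    rw [hL]
    exact len_word (hc := certE6) h1 h2
  rcases T.J_cases J with rfl | rfl | rfl | rfl
  · rw [pair n0 n5 (by decide) T.node0 T.node5 T.nd0,
      hlen [0, 5] (by rw [T.wJ0]; rfl) (by decide +kernel) (by decide +kernel)]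
    rfl
  · rw [pair n2 n4 (by decide) T.node2 T.node4 T.nd1,
      hlen [2, 4] (by rw [T.wJ1]; rfl) (by decide +kernel) (by decide +kernel)]
    rfl
  · rw [single n3 T.node3 T.nd2, hlen [3] (by rw [T.wJ2]; rfl) (by decide +kernel) (by decide +kernel)]
    exact (pow_one q).symm
  · rw [single n1 T.node1 T.nd3, hlen [1] (by rw [T.wJ3]; rfl) (by decide +kernel) (by decide +kernel)]
    exact (pow_one q).symm

theorem card_U (hq : IsPrimePow q) (hK : Fintype.card K = q ^ 2) :
    Nat.card ↥(chevE6.posUnipotent K ⊓ twistedE6 K q) = q ^ 36 := by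
  obtain ⟨T⟩ := exists_setup hq hK
  obtain ⟨w, hw, hw'⟩ := exists_w0 T.S
  have h := (T.full hK).toParts.card_fixU 1 q (T.card_UJ hq hK) hw
  rw [pow_one, fixU, Uw_w0 hw' certE6, (T.full hK).toParts.fix_eq, len_w0 hw' certE6] at h
  rw [show twistedE6 K q = (T.full hK).toParts.G1 from rfl, h]
  rfl

theorem card_H (hq : IsPrimePow q) (hK : Fintype.card K = q ^ 2) :
    Nat.gcd 3 (q + 1) * Nat.card ↥(chevE6.diagonalSubgroup K ⊓ twistedE6 K q) =
      (q - 1) ^ 4 * (q + 1) ^ 2 := by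
  obtain ⟨T⟩ := exists_setup hq hK
  have h := T.S.card_H_fix (T.obs hK)
  have h21 : q ^ 2 - 1 = (q - 1) * (q + 1) := by
    zify [Nat.one_le_pow 2 q hq.pos, hq.one_lt.le]
    ring
  have hker : Nat.card ↥((torusFin chevE6 auxE6 K).ker ⊓ T.S.fixT) = Nat.gcd 3 (q + 1) := by
    refine Eq.trans ?_ (card_units_pow_eq_one (K := K) (n := Nat.gcd 3 (q + 1))
      ((Nat.gcd_dvd_right 3 (q + 1)).trans (by rw [hK, h21]; exact Dvd.intro_left _ rfl)))
    refine Nat.card_congr
      { toFun := fun z => ⟨z.1 n0, by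
          obtain ⟨h3, -, -, -, -, a5⟩ := ker_iff.1 z.2.1
          obtain ⟨b5, -⟩ := (T.mem_fixT hK).1 z.2.2
          refine pow_gcd_eq_one.2 ⟨h3, ?_⟩
          rw [pow_succ, ← b5, a5, ← pow_succ, h3]⟩
        invFun := fun a => ⟨fun i => if i = n1 ∨ i = n3 then 1 else if i = n0 ∨ i = n4 then a.1 else a.1 ^ 2, ?_, ?_⟩
        left_inv := ?_
        right_inv := fun a => Subtype.ext (by simp [n0, n1, n3]) }
    · refine ker_iff.2 ⟨?_, ?_, ?_, ?_, ?_, ?_⟩
      · simp [n0, n1, n3, (pow_gcd_eq_one.1 a.2).1]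
      all_goals simp [n0, n1, n2, n3, n4, n5]
    · have h2 : a.1 ^ q = a.1 ^ 2 := by
        have e1 := (pow_gcd_eq_one.1 a.2).1
        have e2 := (pow_gcd_eq_one.1 a.2).2
        rw [pow_succ] at e1 e2
        exact mul_right_cancel (e2.trans e1.symm)
      refine (T.mem_fixT hK).2 ⟨?_, ?_, ?_, ?_⟩
      · simp [n0, n1, n3, n4, n5, h2]
      · have h4 : (a.1 ^ 2) ^ q = a.1 := by
          rw [← pow_mul, mul_comm, pow_mul, h2, ← pow_mul, show 2 * 2 = 3 + 1 from rfl, pow_succ,
            (pow_gcd_eq_one.1 a.2).1, one_mul]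
        simp [n0, n1, n2, n3, n4, h4]
      · simp
      · simp
    · intro z
      obtain ⟨-, a1, a2, a3, a4, a5⟩ := ker_iff.1 z.2.1
      refine Subtype.ext (funext fun i => ?_)
      rcases node_cases i with rfl | rfl | rfl | rfl | rfl | rfl <;>
        simp [n0, n1, n2, n3, n4, n5] <;> first | exact a1.symm | exact a2.symm | exact a3.symm | exact a4.symm | exact a5.symm
  rw [hker] at h
  rw [show twistedE6 K q = (T.full hK).toParts.G1 from rfl, ← (T.full hK).toParts.fix_eq, mul_comm, h]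
  have e : Nat.card ↥T.S.fixT =
      Nat.card (({u : Kˣ // u ^ (q - 1) = 1} × {u : Kˣ // u ^ (q - 1) = 1}) × (Kˣ × Kˣ)) := by
    have hq1 : q - 1 + 1 = q := by have := hq.two_le; omega
    have hf : ∀ u : Kˣ, u ^ (q - 1) = 1 ↔ u ^ q = u := fun u => by
      constructor
      · intro h; rw [← hq1, pow_succ, h, one_mul]
      · intro h; exact mul_right_cancel (b := u) (by rw [← pow_succ, hq1, h, one_mul])
    refine Nat.card_congr
      { toFun := fun c => ((⟨c.1 n1, (hf _).2 ((T.mem_fixT hK).1 c.2).2.2.1⟩,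
          ⟨c.1 n3, (hf _).2 ((T.mem_fixT hK).1 c.2).2.2.2⟩), (c.1 n0, c.1 n2))
        invFun := fun p => ⟨fun i => if i = n1 then p.1.1.1 else if i = n3 then p.1.2.1 else if i = n0 then p.2.1
          else if i = n2 then p.2.2 else if i = n4 then p.2.2 ^ q else p.2.1 ^ q, ?_⟩
        left_inv := ?_
        right_inv := fun p => by ext <;> simp [n0, n1, n2, n3] }
    · refine (T.mem_fixT hK).2 ⟨?_, ?_, ?_, ?_⟩
      · simp [n0, n1, n2, n3, n4, n5]
      · simp [n0, n1, n2, n3, n4]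
      · simpa using (hf _).1 p.1.1.2
      · simpa [n1, n3] using (hf _).1 p.1.2.2
    · intro c
      obtain ⟨a, b, -, -⟩ := (T.mem_fixT hK).1 c.2
      refine Subtype.ext (funext fun i => ?_)
      rcases node_cases i with rfl | rfl | rfl | rfl | rfl | rfl <;>
        simp [n0, n1, n2, n3, n4, n5] <;> first | exact a.symm | exact b.symm
  rw [e, Nat.card_prod, Nat.card_prod, Nat.card_prod, card_units_pow_eq_one (sub_one_dvd hK), Nat.card_units,
    Nat.card_eq_fintype_card, hK, h21]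
  ring

/-- the lengths of the coset representatives along the chain -/
def lens : List (List ℕ) :=
  [[0, 2], [0, 2, 4], [0, 1, 3, 5, 4, 6, 8, 9],
    [0, 1, 2, 4, 6, 5, 7, 6, 9, 8, 10, 10, 11, 11, 12, 13, 14, 15, 16, 15, 17, 19, 20, 21]]

set_option maxHeartbeats 800000 in
theorem card_group (hq : IsPrimePow q) (hK : Fintype.card K = q ^ 2) :
    Nat.gcd 3 (q + 1) * Nat.card ↥(twistedE6 K q) =
      q ^ 36 * (q ^ 2 - 1) * (q ^ 5 + 1) * (q ^ 6 - 1) * (q ^ 8 - 1) * (q ^ 9 + 1) * (q ^ 12 - 1) := by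
  obtain ⟨T⟩ := exists_setup hq hK
  set P := (T.full hK).toParts
  have hG : twistedE6 K q = P.G1 := rfl
  have hU := card_U hq hK
  have hH := card_H hq hK
  rw [hG, ← P.fix_eq] at hU hH
  have e : ∑ π ∈ T.S.W1fin, Nat.card ↥(fixU T.S π) =
      (chainE6.map fun p => (p.1.map fun L => q ^ ((expand orbE6.ws L).length / 1)).sum).prod := by
    rw [Finset.sum_congr rfl fun π hπ =>
      show Nat.card ↥(fixU T.S π) = q ^ (len chevE6 auxE6 π / 1) by
        rw [Nat.div_one, ← P.card_fixU 1 q (T.card_UJ hq hK) (T.S.mem_W1fin.1 hπ), pow_one],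
      twPoin_prod T.O T.no T.orb chainOK_E6 q]
  rw [hG, P.card_fix, card_fixB, hU, e]
  calc Nat.gcd 3 (q + 1) * (q ^ 36 * Nat.card ↥(chevE6.diagonalSubgroup K ⊓ T.S.fix) *
        (chainE6.map fun p => (p.1.map fun L => q ^ ((expand orbE6.ws L).length / 1)).sum).prod)
      = q ^ 36 * ((q - 1) ^ 4 * (q + 1) ^ 2) *
          (chainE6.map fun p => (p.1.map fun L => q ^ ((expand orbE6.ws L).length / 1)).sum).prod := by
        rw [← hH]; ring
    _ = _ := by
        have hmap : ∀ St : List (List (List ℕ) × List (List ℕ)),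
            (St.map fun p => (p.1.map fun L => q ^ ((expand orbE6.ws L).length / 1)).sum) =
              ((St.map fun p => p.1.map fun L => (expand orbE6.ws L).length).map fun l =>
                (l.map fun n => q ^ n).sum) := fun St => by
          simp [List.map_map, Function.comp_def]
        have hl : (chainE6.map fun p => p.1.map fun L => (expand orbE6.ws L).length) = lens := by decide +kernel
        rw [hmap, hl]
        simp only [lens, List.map_cons, List.map_nil, List.sum_cons, List.sum_nil, List.prod_cons, List.prod_nil,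
          pow_zero, pow_one, add_zero, mul_one]
        zify [Nat.one_le_pow 2 q hq.pos, Nat.one_le_pow 6 q hq.pos, Nat.one_le_pow 8 q hq.pos,
          Nat.one_le_pow 12 q hq.pos, hq.one_lt.le]
        ring

theorem exists_bnPair (hq : IsPrimePow q) (hK : Fintype.card K = q ^ 2) :
    ∃ P : Cfsg.BNPair ↥(twistedE6 K q),
      P.B = (chevE6.borelSubgroup K ⊓ twistedE6 K q).subgroupOf (twistedE6 K q) ∧
      P.N = (chevE6.monomialSubgroup K ⊓ twistedE6 K q).subgroupOf (twistedE6 K q) := by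
  obtain ⟨T⟩ := exists_setup hq hK
  exact (T.full hK).exists_bnPair

theorem normalCore (hq : IsPrimePow q) (hK : Fintype.card K = q ^ 2) :
    ((chevE6.borelSubgroup K ⊓ twistedE6 K q).subgroupOf (twistedE6 K q)).normalCore = ⊥ := by
  obtain ⟨T⟩ := exists_setup hq hK
  exact (T.full hK).normalCore_eq_bot

theorem weyl_hom (hq : IsPrimePow q) (hK : Fintype.card K = q ^ 2) :
    ∃ φ : ↥(chevE6.monomialSubgroup K ⊓ twistedE6 K q) →* (CoxeterMatrix.F₄).Group, Function.Surjective φ ∧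
      φ.ker = (chevE6.diagonalSubgroup K ⊓ twistedE6 K q).subgroupOf (chevE6.monomialSubgroup K ⊓ twistedE6 K q) := by
  obtain ⟨T⟩ := exists_setup hq hK
  obtain ⟨φ, h1, h2⟩ := (T.full hK).exists_weyl_hom (M := chevE6.monomialSubgroup K ⊓ twistedE6 K q) rfl
  have hM : ∀ i j : Fin 4, coxOrdOK chevE6 auxE6
      ((List.replicate (CoxeterMatrix.F₄ i j) (orbE6.ws.getD i [] ++ orbE6.ws.getD j [])).flatten) = true := by
    decide +kernel
  have hcard : Nat.card (CoxeterMatrix.F₄).Group = Nat.card ↥T.S.W1 := by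
    rw [W1fin_card T.O T.no T.orb chainOK_E6]
    exact (card_coxeter certF4 (CoxeterMatrix.F₄) ord_F4 steps_F4).trans (by decide +kernel)
  obtain ⟨e⟩ := exists_coxeter_iso T.O T.no (n := 4) rfl T.orb (by decide +kernel) (CoxeterMatrix.F₄) hM hcard
  refine ⟨e.toMonoidHom.comp φ, e.surjective.comp h1, ?_⟩
  rw [show (e.toMonoidHom.comp φ).ker = φ.ker by ext; simp, h2]
  rfl

theorem perfect (hq : IsPrimePow q) (hK : Fintype.card K = q ^ 2) : commutator ↥(twistedE6 K q) = ⊤ := by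
  obtain ⟨T⟩ := exists_setup hq hK
  let P := (T.full hK).toParts
  refine perfect_of_gens ?_
  obtain ⟨u, hu⟩ := IsCyclic.exists_ofOrder_eq_natCard (α := Kˣ)
  have hu2 : (u : K) ^ 2 ≠ 1 := by
    rw [← Units.val_pow_eq_pow_val, ne_eq, Units.val_eq_one]
    intro h
    have := Nat.le_of_dvd two_pos (orderOf_dvd_of_pow_eq_one h)
    rw [hu, Nat.card_units, Nat.card_eq_fintype_card, hK] at this
    have := Nat.pow_le_pow_left hq.two_le 2
    omega
  have huq : ((u : K) ^ q) ^ 2 ≠ 1 := by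
    intro h
    rw [← T.phi n0, ← map_pow] at h
    exact hu2 ((T.S.phi n0).injective (h.trans (map_one _).symm))
  have hmem : ∀ c ∈ T.S.fixT, torusFin chevE6 auxE6 K c ∈ P.G1 := fun c hc' => P.H_le (by
    rw [T.S.H_fix_eq (T.obs hK)]
    exact ⟨c, hc', rfl⟩)
  have hgen : ∀ i, i = n1 ∨ i = n3 → ∀ s : K, T.S.phi i s = s → xg chevE6 K (chevE6.simple i) s ∈ P.G1 :=
    fun i hi s hs => single_mem hi true (by rw [← T.phi i]; exact hs)
  have hpos : ∀ J (t : Fin chevE6.rank → K), (∀ i ∈ T.O.nd J, t (T.S.node i) = T.S.phi i (t i)) →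
      orbProd T.O J true t ∈ ⁅P.G1, P.G1⁆ := by
    intro J t ht
    rcases T.J_cases J with rfl | rfl | rfl | rfl
    · let c : Fin chevE6.rank → Kˣ := fun i => if i = n0 then u else if i = n5 then u ^ q else 1
      have hc' : c ∈ T.S.fixT := (T.mem_fixT hK).2 (by simp [c, n0, n1, n2, n3, n4, n5])
      refine (T.orth T.J0).torus_perfect hc' (hmem c hc') (fun i hi => ?_) ht
      simp only [T.nd0, List.mem_cons, List.not_mem_nil, or_false] at hi
      obtain ⟨e0, -, -, -, -, e5⟩ := tchar_eq c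
      rcases hi with rfl | rfl
      · rw [e0]; simpa [c, n0, n2, n5] using hu2
      · rw [e5]; simpa [c, n0, n4, n5] using huq
    · let c : Fin chevE6.rank → Kˣ := fun i => if i = n2 then u else if i = n4 then u ^ q else 1
      have hc' : c ∈ T.S.fixT := (T.mem_fixT hK).2 (by simp [c, n0, n1, n2, n3, n4, n5])
      refine (T.orth T.J1).torus_perfect hc' (hmem c hc') (fun i hi => ?_) ht
      simp only [T.nd1, List.mem_cons, List.not_mem_nil, or_false] at hi
      obtain ⟨-, -, e2, -, e4, -⟩ := tchar_eq c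
      rcases hi with rfl | rfl
      · rw [e2]; simpa [c, n0, n2, n3, n4] using hu2
      · rw [e4]; simpa [c, n2, n3, n4, n5] using huq
    · have := P.long_perfect (i := n3) (ia := n3) (ib := n3) (hgen n3 (Or.inr rfl))
        (hgen n3 (Or.inr rfl) 1 (map_one _)) T.node3
        (La := []) (Lb := [n3, n1]) (Lk := [n1])
        (word_mem_W1 symOK_E6 T.root (L := []) (by decide +kernel))
        (word_mem_W1 symOK_E6 T.root (L := [3, 1]) (by decide +kernel))
        (word_mem_W1 symOK_E6 T.root (L := [1]) (by decide +kernel))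
        (c := 1) (by simp) (by rw [wp_val, wp_val]; decide +kernel) (by rw [wp_val, wp_val]; decide +kernel)
        (by rw [wp_val, wp_val, wp_val]; decide +kernel)
        (t := t n3) (by have := ht n3 (by simp [T.nd2]); rw [T.node3] at this; exact this.symm)
      simpa [orbProd, T.nd2, sgnRoot] using this
    · have := P.long_perfect (i := n1) (ia := n1) (ib := n1) (hgen n1 (Or.inl rfl))
        (hgen n1 (Or.inl rfl) 1 (map_one _)) T.node1
        (La := []) (Lb := [n1, n3]) (Lk := [n3])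
        (word_mem_W1 symOK_E6 T.root (L := []) (by decide +kernel))
        (word_mem_W1 symOK_E6 T.root (L := [1, 3]) (by decide +kernel))
        (word_mem_W1 symOK_E6 T.root (L := [3]) (by decide +kernel))
        (c := -1) (by simp) (by rw [wp_val, wp_val]; decide +kernel) (by rw [wp_val, wp_val]; decide +kernel)
        (by rw [wp_val, wp_val, wp_val]; decide +kernel)
        (t := t n1) (by have := ht n1 (by simp [T.nd3]); rw [T.node1] at this; exact this.symm)
      simpa [orbProd, T.nd3, sgnRoot] using this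
  refine gen_le (hc := certE6) fun w hw => ⟨word_ok hw, ?_⟩
  obtain ⟨J, b, t, ht, e⟩ := T.gen_eq_orbProd hK hw
  rw [e]
  cases b
  · exact P.neg_mem (T.orth J) (hpos J) (T.closed J) ((T.full hK).sq_piJ J) ht
  · exact hpos J t ht

theorem simple (hq : IsPrimePow q) (hK : Fintype.card K = q ^ 2) :
    IsSimpleGroup ↥(twistedE6 K q) ∧ ¬ IsMulCommutative ↥(twistedE6 K q) := by
  obtain ⟨T⟩ := exists_setup hq hK
  refine (T.full hK).isSimple (borel_isSolvable certE6 K) T.J0 (fun J => J) ?_ (perfect hq hK)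
  intro J hJ
  have hne : ∀ A B : List (Fin chevE6.rank),
      ((List.finRange chevE6.rank).map fun i : Fin chevE6.rank =>
          wAct auxE6 ((A ++ B).map Fin.val) (chevE6.simple i)) ≠
        ((List.finRange chevE6.rank).map fun i : Fin chevE6.rank =>
          wAct auxE6 ((B ++ A).map Fin.val) (chevE6.simple i)) →
      wp certE6 A * wp certE6 B ≠ wp certE6 B * wp certE6 A := by
    intro A B hne h
    rw [← wp_append, ← wp_append] at h
    refine hne (List.map_congr_left fun i _ => ?_)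
    have e := congrArg (fun π : Equiv.Perm (Fin chevE6.nroots) => ((π (sR certE6 i) : Fin chevE6.nroots) : ℕ)) h
    simpa only [wp_val, sR] using e
  rcases T.J_cases J with rfl | rfl | rfl | rfl
  · exact absurd rfl hJ
  · refine ⟨T.J0, by simp [Setup.J0, Setup.J1], ?_⟩
    rw [Orbits.piJ, Orbits.piJ, T.wJ0, T.wJ1]
    exact hne _ _ (by decide +kernel)
  · refine ⟨T.J1, by simp [Setup.J1, Setup.J2], ?_⟩
    rw [Orbits.piJ, Orbits.piJ, T.wJ1, T.wJ2]
    exact hne _ _ (by decide +kernel)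
  · refine ⟨T.J2, by simp [Setup.J2, Setup.J3], ?_⟩
    rw [Orbits.piJ, Orbits.piJ, T.wJ2, T.wJ3]
    exact hne _ _ (by decide +kernel)

end Cfsg.Lib.Tw.E6
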