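/-
The groups 2F4(q).
-/
import Cfsg.Agent.Lib.Tw.Tools2
import Cfsg.Agent.Lib.Tw.B2
import Cfsg.Agent.Lib.Tw.Dihedral
import Cfsg.Prelude.Def_LieTwisted

set_option autoImplicit false

namespace Cfsg.Lib.Tw.F4

open Cfsg.Lie Cfsg.Lib.Chev

variable {K : Type*} [Field K] [Fintype K] {m : ℕ}

/-- the first node -/
def n0 : Fin chevF4.rank := ⟨0, by decide +kernel⟩
/-- the second node -/
def n1 : Fin chevF4.rank := ⟨1, by decide +kernel⟩
/-- the third node -/
def n2 : Fin chevF4.rank := ⟨2, by decide +kernel⟩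
/-- the fourth node -/
def n3 : Fin chevF4.rank := ⟨3, by decide +kernel⟩

theorem node_cases (i : Fin chevF4.rank) : i = n0 ∨ i = n1 ∨ i = n2 ∨ i = n3 := by
  have hr : chevF4.rank = 4 := by decide +kernel
  obtain ⟨i, hi⟩ := i
  rw [hr] at hi
  simp only [n0, n1, n2, n3, Fin.ext_iff]
  omega

/-- the exponent of a root: two on short roots -/
def lamR (r : ℕ) : ℕ := if isoF4.li.contains (4 + r) then 2 else 1

theorem isoOK1_all : allB chevF4.nroots (fun r =>
    isoOK1 chevF4 auxF4 isoF4 r (isoF4.root.getD r 0) (lamR r) &&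
      Nat.blt (isoF4.root.getD r 0) chevF4.nroots) = true := by decide +kernel

/-- the twisting endomorphism with its orbits -/
structure Setup (K : Type*) [Field K] (m : ℕ) where
  /-- the endomorphism -/
  S : Sigma certF4 K
  /-- the orbits -/
  O : Orbits S
  /-- the field map of the long roots -/
  g : K ≃+* K
  /-- the field map of the short roots -/
  f : K ≃+* K
  no : O.no = orbF4.os.length
  node : S.node = nodePerm symOK_F4
  root : S.root = rootPerm symOK_F4
  gval : ∀ t, g t = t ^ (2 ^ m)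
  fval : ∀ t, f t = t ^ (2 * 2 ^ m)
  two : (2 : K) = 0
  phi : ∀ i : Fin chevF4.rank, S.phi i = if isoF4.lam.getD i 0 = 2 then f else g
  app : ∀ r < chevF4.nroots, ∀ t : K,
    S.app (xg chevF4 K r t) = xg chevF4 K (isoF4.root.getD r 0) (g t ^ lamR r)
  orb : ∀ J, O.nd J = toFins chevF4.rank (orbF4.os.getD (Fin.cast no J) []) ∧
    O.wJ J = toFins chevF4.rank (orbF4.ws.getD (Fin.cast no J) [])

theorem two_eq_zero (hK : Fintype.card K = 2 ^ (2 * m + 1)) : (2 : K) = 0 := by
  haveI : CharP K 2 := by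
    obtain ⟨p', hp'⟩ := CharP.exists K
    obtain ⟨n, hpp, hn⟩ := FiniteField.card K p'
    rw [hK] at hn
    have h1 : 2 ∣ p' ^ (n : ℕ) := hn ▸ dvd_pow_self 2 (by omega)
    obtain rfl := (Nat.prime_dvd_prime_iff_eq Nat.prime_two hpp).1 (Nat.prime_two.dvd_of_dvd_pow h1)
    exact hp'
  exact_mod_cast CharP.cast_eq_zero K 2

theorem exists_setup (hK : Fintype.card K = 2 ^ (2 * m + 1)) : Nonempty (Setup K m) := by
  obtain ⟨g, hg⟩ := exists_qAut (a := m) Nat.prime_two hK (by omega)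
  obtain ⟨f, hf⟩ := exists_qAut (a := m + 1) Nat.prime_two hK (by omega)
  have h2 := two_eq_zero (m := m) hK
  have hf' : ∀ t, f t = t ^ (2 * 2 ^ m) := fun t => by rw [hf, pow_succ']
  have hm : ((isoF4.md : ℕ) : K) = 0 := by
    show ((2 : ℕ) : K) = 0
    exact_mod_cast h2
  have hperf := perfect_of_termsOK (F := K) certF4 terms_F4
  have hS := (simple_of_conn certF4 conn_F4 (by decide +kernel) hperf).1
  have hinj := subMat_injective_of_simple (hc := certF4) isoOK_F4 hm hS (r := 33) (by decide +kernel) (i := 0) (j := 10)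
    (by decide +kernel) (by decide +kernel) (by decide +kernel) (by
      rw [show ev (1 : ℤ) 1 (sp chevF4 auxF4 33) (isoF4.li[0]'(by decide +kernel))
        (isoF4.li[10]'(by decide +kernel)) = 1 by decide +kernel]
      simp)
  obtain ⟨S, h1, h2', h3, h4⟩ := exists_sigma_roots certF4 isoOK_F4 symOK_F4 hm hinj g
    (fun i => if isoF4.lam.getD i 0 = 2 then f else g) (fun i t => by
      have hl : ∀ j : Fin chevF4.rank, isoF4.lam.getD j 0 = 2 ∨ isoF4.lam.getD j 0 = 1 := by decide +kernel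
      rcases hl i with h | h <;> simp only [h]
      · rw [if_pos trivial, hf', hg, ← pow_mul, mul_comm]
      · simp)
  obtain ⟨O, e, hO⟩ := exists_orbits symOK_F4 orbOK_F4 h1 h2'
  refine ⟨⟨S, O, g, f, e, h1, h2', hg, hf', h2, fun i => by rw [h3], fun r hr t => ?_, hO⟩⟩
  have h := allB_iff.1 isoOK1_all r hr
  rw [Bool.and_eq_true, Nat.blt_eq] at h
  exact h4 r _ _ hr h.2 h.1 t

variable (T : Setup K m)

/-- the orthogonal orbit -/
def Setup.J0 : Fin T.O.no := ⟨0, by rw [T.no]; decide +kernel⟩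
/-- the orbit of type B2 -/
def Setup.J1 : Fin T.O.no := ⟨1, by rw [T.no]; decide +kernel⟩

omit [Fintype K] in
theorem Setup.J_cases (J : Fin T.O.no) : J = T.J0 ∨ J = T.J1 := by
  obtain ⟨J, hJ⟩ := J
  rw [T.no, show orbF4.os.length = 2 from rfl] at hJ
  simp only [Setup.J0, Setup.J1, Fin.ext_iff]
  omega

omit [Fintype K] in
theorem Setup.nd0 : T.O.nd T.J0 = [n0, n3] := by rw [(T.orb _).1]; rfl
omit [Fintype K] in
theorem Setup.nd1 : T.O.nd T.J1 = [n1, n2] := by rw [(T.orb _).1]; rfl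
omit [Fintype K] in
theorem Setup.wJ0 : T.O.wJ T.J0 = [n0, n3] := by rw [(T.orb _).2]; rfl
omit [Fintype K] in
theorem Setup.wJ1 : T.O.wJ T.J1 = [n1, n2, n1, n2] := by rw [(T.orb _).2]; rfl

omit [Fintype K] in
theorem Setup.node0 : T.S.node n0 = n3 := by rw [T.node]; exact Fin.ext rfl
omit [Fintype K] in
theorem Setup.node1 : T.S.node n1 = n2 := by rw [T.node]; exact Fin.ext rfl
omit [Fintype K] in
theorem Setup.node2 : T.S.node n2 = n1 := by rw [T.node]; exact Fin.ext rfl
omit [Fintype K] in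
theorem Setup.node3 : T.S.node n3 = n0 := by rw [T.node]; exact Fin.ext rfl

omit [Fintype K] in
theorem Setup.phi_short : T.S.phi n0 = T.f ∧ T.S.phi n1 = T.f ∧ T.S.phi n2 = T.g ∧ T.S.phi n3 = T.g :=
  ⟨by rw [T.phi]; exact if_pos (by decide +kernel), by rw [T.phi]; exact if_pos (by decide +kernel),
    by rw [T.phi]; exact if_neg (by decide +kernel), by rw [T.phi]; exact if_neg (by decide +kernel)⟩

theorem Setup.pow_fg (hK : Fintype.card K = 2 ^ (2 * m + 1)) (t : K) : T.f (T.g t) = t ∧ T.g (T.f t) = t := by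
  have e : (2 * 2 ^ m) * 2 ^ m = Fintype.card K := by rw [hK, pow_succ, two_mul m, pow_add]; ring
  constructor
  · rw [T.gval, T.fval, ← pow_mul, mul_comm, e, FiniteField.pow_card]
  · rw [T.gval, T.fval, ← pow_mul, e, FiniteField.pow_card]

omit [Fintype K] in
theorem Setup.gsq (t : K) : T.g t ^ 2 = T.f t := by
  rw [T.gval, T.fval, ← pow_mul, mul_comm]

omit [Fintype K] in
theorem Setup.closed (J : Fin T.O.no) : ∀ i ∈ T.O.nd J, T.S.node i ∈ T.O.nd J := by
  rcases T.J_cases J with rfl | rfl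
  · simp [T.nd0, T.node0, T.node3]
  · simp [T.nd1, T.node1, T.node2]

omit [Fintype K] in
theorem Setup.app_short {r s : ℕ} (h : r < chevF4.nroots ∧ lamR r = 2 ∧ isoF4.root.getD r 0 = s) (t : K) :
    T.S.app (xg chevF4 K r t) = xg chevF4 K s (T.f t) := by
  obtain ⟨h1, h2, h3⟩ := h
  rw [T.app r h1, h2, h3, T.gsq]

omit [Fintype K] in
theorem Setup.app_long {r s : ℕ} (h : r < chevF4.nroots ∧ lamR r = 1 ∧ isoF4.root.getD r 0 = s) (t : K) :
    T.S.app (xg chevF4 K r t) = xg chevF4 K s (T.g t) := by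
  obtain ⟨h1, h2, h3⟩ := h
  rw [T.app r h1, h2, h3, pow_one]

include T in
omit [Fintype K] in
theorem Setup.commute_of {r s : ℕ} (h : r < chevF4.nroots ∧ s < chevF4.nroots ∧ s ≠ r ∧ s ≠ negI chevF4 r ∧
      ((chevF4.commTerms r s).all fun c => c.2.1 % 2 == 0 && Nat.blt c.1 chevF4.nroots) = true) (t u : K) :
    Commute (xg chevF4 K r t) (xg chevF4 K s u) := by
  obtain ⟨hr, hs, h1, h2, h3⟩ := h
  refine Units.ext ?_
  simp only [Units.val_mul, coe_xg certF4 hr, coe_xg certF4 hs]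
  rw [comm_formula certF4 hr hs h1 h2 t u]
  have e : chevF4.wordMat K (chevF4.commWord K r s t u) = 1 := by
    rw [List.all_eq_true] at h3
    simp only [ChevalleyDatum.wordMat, ChevalleyDatum.commWord, List.map_map]
    refine List.prod_eq_one fun x hx => ?_
    obtain ⟨c, hc', rfl⟩ := List.mem_map.1 hx
    have h4 := h3 c hc'
    rw [Bool.and_eq_true, Nat.blt_eq, beq_iff_eq] at h4
    obtain ⟨k, hk⟩ := Int.dvd_of_emod_eq_zero h4.1
    have hlt : c.1 < chevF4.nroots := h4.2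
    simp only [Function.comp_apply]
    rw [hk, Int.cast_mul, Int.cast_ofNat, T.two, zero_mul, zero_mul, zero_mul, x_zero certF4 hlt]
  rw [e, mul_one]

include T in
omit [Fintype K] in
theorem Setup.swap_of {a b c d : ℕ} {c1 c2 : ℤ}
    (h : a < chevF4.nroots ∧ b < chevF4.nroots ∧ c < chevF4.nroots ∧ d < chevF4.nroots ∧ b ≠ a ∧
      b ≠ negI chevF4 a ∧ chevF4.commTerms a b = [(c, c1, 1, 1), (d, c2, 2, 1)] ∧ c1.natAbs = 1 ∧ c2.natAbs = 1)
    (t u : K) : xg chevF4 K b u * xg chevF4 K a t =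
      xg chevF4 K a t * xg chevF4 K b u * xg chevF4 K c (t * u) * xg chevF4 K d (t ^ 2 * u) := by
  obtain ⟨ha, hb, hc', hd, h1, h2, h3, h4, h5⟩ := h
  have hneg : ∀ x : K, -x = x := fun x => by
    have := T.two
    linear_combination -x * this
  have hcast : ∀ z : ℤ, z.natAbs = 1 → (z : K) = 1 := fun z hz => by
    rcases Int.natAbs_eq z with e | e <;> rw [e, hz] <;> simp [hneg]
  refine Units.ext ?_
  simp only [Units.val_mul, coe_xg certF4 ha, coe_xg certF4 hb, coe_xg certF4 hc', coe_xg certF4 hd]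
  rw [comm_formula certF4 ha hb h1 h2 t u]
  simp [ChevalleyDatum.commWord, ChevalleyDatum.wordMat, h3, hcast _ h4, hcast _ h5, hneg, mul_assoc]

/-- the root groups of the orbit of type B2, with a sign -/
def rootB (b : Bool) : ℕ × ℕ × ℕ × ℕ := if b then (27, 25, 28, 30) else (20, 22, 19, 17)

theorem rootB_facts : ∀ b : Bool,
    ((rootB b).1 < chevF4.nroots ∧ lamR (rootB b).1 = 2 ∧ isoF4.root.getD (rootB b).1 0 = (rootB b).2.1) ∧
    ((rootB b).2.1 < chevF4.nroots ∧ lamR (rootB b).2.1 = 1 ∧ isoF4.root.getD (rootB b).2.1 0 = (rootB b).1) ∧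
    ((rootB b).2.2.1 < chevF4.nroots ∧ lamR (rootB b).2.2.1 = 2 ∧
      isoF4.root.getD (rootB b).2.2.1 0 = (rootB b).2.2.2) ∧
    ((rootB b).2.2.2 < chevF4.nroots ∧ lamR (rootB b).2.2.2 = 1 ∧
      isoF4.root.getD (rootB b).2.2.2 0 = (rootB b).2.2.1) := by
  decide +kernel

/-- the data of the orbit of type B2 -/
noncomputable def Setup.b2 (hK : Fintype.card K = 2 ^ (2 * m + 1)) (b : Bool) : B2Data T.S where
  Xa := xg chevF4 K (rootB b).1
  Xb := xg chevF4 K (rootB b).2.1
  Xc := xg chevF4 K (rootB b).2.2.1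
  Xd := xg chevF4 K (rootB b).2.2.2
  f := T.f
  g := T.g
  two := T.two
  fg t := (T.pow_fg hK t).1
  gf t := (T.pow_fg hK t).2
  gsq := T.gsq
  memA := xg_mem_group certF4 (rootB_facts b).1.1
  memB := xg_mem_group certF4 (rootB_facts b).2.1.1
  memC := xg_mem_group certF4 (rootB_facts b).2.2.1.1
  memD := xg_mem_group certF4 (rootB_facts b).2.2.2.1
  addA := xg_add certF4 (rootB_facts b).1.1
  addB := xg_add certF4 (rootB_facts b).2.1.1
  addC := xg_add certF4 (rootB_facts b).2.2.1.1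
  addD := xg_add certF4 (rootB_facts b).2.2.2.1
  appA := T.app_short (rootB_facts b).1
  appB := T.app_long (rootB_facts b).2.1
  appC := T.app_short (rootB_facts b).2.2.1
  appD := T.app_long (rootB_facts b).2.2.2
  swap := by
    cases b
    · exact T.swap_of (c1 := 1) (c2 := -1) (by decide +kernel)
    · exact T.swap_of (c1 := -1) (c2 := -1) (by decide +kernel)
  commAC := by cases b <;> exact T.commute_of (by decide +kernel)
  commAD := by cases b <;> exact T.commute_of (by decide +kernel)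
  commBC := by cases b <;> exact T.commute_of (by decide +kernel)
  commBD := by cases b <;> exact T.commute_of (by decide +kernel)
  commCD := by cases b <;> exact T.commute_of (by decide +kernel)

omit [Fintype K] in
theorem word_ok {w : List (ℕ × K)} (hw : w ∈ f4Words K (2 ^ m)) : ∀ p ∈ w, p.1 < chevF4.nroots := by
  have hn : chevF4.nroots = 48 := by decide +kernel
  rcases hw with ⟨t, rfl | rfl⟩ | ⟨t, u, rfl | rfl⟩ <;>
    simp [f4PairWord, b2ClassWord, f4p1, f4p4, f4m1, f4m4, f4a, f4b, f4ab, f4aab, f4ma, f4mb, f4mab, f4maab, hn]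

omit [Fintype K] in
theorem wordProd_class (a b c d : ℕ) (t u : K) :
    wordProd chevF4 (b2ClassWord (2 ^ m) a b c d t u) = xg chevF4 K a (t ^ 2 ^ m) * xg chevF4 K b t *
      xg chevF4 K c (t ^ (2 ^ m + 1) + u) * xg chevF4 K d (u ^ (2 * 2 ^ m)) := by
  simp [wordProd, b2ClassWord, mul_assoc]

theorem Setup.word_eq (hK : Fintype.card K = 2 ^ (2 * m + 1)) (b : Bool) (t u : K) :
    (T.b2 hK b).word t u = wordProd chevF4
      (if b then b2ClassWord (2 ^ m) f4a f4b f4ab f4aab t u else b2ClassWord (2 ^ m) f4ma f4mb f4mab f4maab t u) := by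
  cases b <;>
  · simp only [Bool.false_eq_true, if_false, if_true]
    rw [wordProd_class, ← T.gval, ← T.fval, pow_succ, ← T.gval]
    rfl

theorem Setup.word_mem (hK : Fintype.card K = 2 ^ (2 * m + 1)) (b : Bool) (t u : K) :
    (T.b2 hK b).word t u ∈ twistedF4 K (2 ^ m) := by
  rw [T.word_eq hK]
  have hw : (if b then b2ClassWord (2 ^ m) f4a f4b f4ab f4aab t u else
      b2ClassWord (2 ^ m) f4ma f4mb f4mab f4maab t u) ∈ f4Words K (2 ^ m) := by
    cases b
    exacts [Or.inr ⟨t, u, Or.inr rfl⟩, Or.inr ⟨t, u, Or.inl rfl⟩]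
  exact wordProd_mem_gen (hc := certF4) hw (word_ok hw)

theorem Setup.orth (hK : Fintype.card K = 2 ^ (2 * m + 1)) : Orth T.O T.J0 (twistedF4 K (2 ^ m)) := by
  refine ⟨by rw [T.wJ0, T.nd0], by rw [T.nd0]; decide +kernel, fun b t ht => ?_⟩
  have h := ht n3 (by simp [T.nd0])
  rw [T.node3, T.phi_short.2.2.2, T.gval] at h
  have hw : [(sgnRoot chevF4 b n0, t n3 ^ 2 ^ m), (sgnRoot chevF4 b n3, t n3)] ∈ f4Words K (2 ^ m) := by
    cases b
    · exact Or.inl ⟨t n3, Or.inr rfl⟩
    · exact Or.inl ⟨t n3, Or.inl rfl⟩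
  have := wordProd_mem_gen (hc := certF4) hw (word_ok hw)
  simpa [wordProd, T.nd0, h, twistedF4] using this

theorem Setup.gen_cases (hK : Fintype.card K = 2 ^ (2 * m + 1)) {w : List (ℕ × K)} (hw : w ∈ f4Words K (2 ^ m)) :
    (∃ b t, (∀ i ∈ T.O.nd T.J0, t (T.S.node i) = T.S.phi i (t i)) ∧ wordProd chevF4 w = orbProd T.O T.J0 b t) ∨
      ∃ b t u, wordProd chevF4 w = (T.b2 hK b).word t u := by
  rcases hw with ⟨t, hw⟩ | ⟨t, u, rfl | rfl⟩
  · left
    let v : Fin chevF4.rank → K := fun i => if i = n0 then T.g t else t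
    have hv0 : v n0 = T.g t := if_pos rfl
    have hv3 : v n3 = t := if_neg (by decide)
    have hcompat : ∀ i ∈ T.O.nd T.J0, v (T.S.node i) = T.S.phi i (v i) := by
      intro i hi
      simp only [T.nd0, List.mem_cons, List.not_mem_nil, or_false] at hi
      rcases hi with rfl | rfl
      · rw [T.node0, T.phi_short.1, hv0, hv3, (T.pow_fg hK t).1]
      · rw [T.node3, T.phi_short.2.2.2, hv0, hv3]
    rcases hw with rfl | rfl
    · refine ⟨true, v, hcompat, ?_⟩
      simp [wordProd, f4PairWord, orbProd, T.nd0, hv0, hv3, T.gval]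
      rfl
    · refine ⟨false, v, hcompat, ?_⟩
      simp [wordProd, f4PairWord, orbProd, T.nd0, hv0, hv3, T.gval]
      rfl
  · exact Or.inr ⟨true, t, u, by rw [T.word_eq hK]; rfl⟩
  · exact Or.inr ⟨false, t, u, by rw [T.word_eq hK]; rfl⟩

theorem Setup.le_fix (hK : Fintype.card K = 2 ^ (2 * m + 1)) : twistedF4 K (2 ^ m) ≤ T.S.fix := by
  refine gen_le (hc := certF4) fun w hw => ⟨word_ok hw, ?_⟩
  rcases T.gen_cases hK hw with ⟨b, t, ht, e⟩ | ⟨b, t, u, e⟩ <;> rw [e]
  · exact ⟨orbProd_mem_group b t, orbProd_app (T.orth hK).ok b (T.closed _) ht⟩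
  · exact B2Data.word_fixed _ t u

theorem Setup.W_inj (hK : Fintype.card K = 2 ^ (2 * m + 1)) {α β γ δ α' β' γ' δ' : K}
    (h : (T.b2 hK true).W α β γ δ = (T.b2 hK true).W α' β' γ' δ') :
    α = α' ∧ β = β' ∧ γ = γ' ∧ δ = δ' := by
  set B := T.b2 hK true with hB
  have h0 : B.W 0 0 0 0 = 1 := by
    simp [B2Data.W, hB, Setup.b2, rootB, xg_zero certF4 (show 27 < chevF4.nroots by decide +kernel),
      xg_zero certF4 (show 25 < chevF4.nroots by decide +kernel), xg_zero certF4 (show 28 < chevF4.nroots by decide +kernel),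
      xg_zero certF4 (show 30 < chevF4.nroots by decide +kernel)]
  have key : ∀ a b c d : K, B.W a b c d = 1 → a = 0 ∧ b = 0 ∧ c = 0 ∧ d = 0 := by
    intro a b c d h1
    simp only [B2Data.W, hB, Setup.b2, rootB, if_true] at h1
    have hb : b = 0 := by
      refine mem_Up_root (hc := certF4) (i := n2) ?_
      have c1 : Commute (xg chevF4 K 25 b) (xg chevF4 K 30 d) := (T.b2 hK true).commBD b d
      have c2 : Commute (xg chevF4 K 25 b) (xg chevF4 K 28 c) := (T.b2 hK true).commBC b c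
      have h2 : xg chevF4 K 27 a * xg chevF4 K 28 c * xg chevF4 K 30 d * xg chevF4 K 25 b = 1 := by
        rw [mul_assoc (xg chevF4 K 27 a * xg chevF4 K 28 c), ← c1.eq, ← mul_assoc, mul_assoc (xg chevF4 K 27 a),
          ← c2.eq, ← mul_assoc]
        exact h1
      rw [show chevF4.simple n2 = 25 by decide +kernel, eq_inv_of_mul_eq_one_right h2]
      refine inv_mem (mul_mem (mul_mem ?_ ?_) ?_) <;>
        exact xg_mem_UG (by decide +kernel) ⟨by decide +kernel, by decide +kernel⟩ (Nat.zero_le _) _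
    subst hb
    rw [xg_zero certF4 (show 25 < chevF4.nroots by decide +kernel), mul_one, mul_assoc] at h1
    have ha : a = 0 := by
      refine mem_Up_root (hc := certF4) (i := n1) ?_
      rw [show chevF4.simple n1 = 27 by decide +kernel, eq_inv_of_mul_eq_one_left h1]
      refine inv_mem (mul_mem ?_ ?_) <;>
        exact xg_mem_UG (by decide +kernel) ⟨by decide +kernel, by decide +kernel⟩ (Nat.zero_le _) _
    subst ha
    rw [xg_zero certF4 (show 27 < chevF4.nroots by decide +kernel), one_mul] at h1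
    have hc0 : c = 0 := by
      by_contra hne
      have e : xg chevF4 K 28 c = xg chevF4 K 30 (-d) := by
        rw [← xg_inv certF4 (show 30 < chevF4.nroots by decide +kernel)]; exact eq_inv_of_mul_eq_one_left h1
      exact absurd (xg_root_unique certF4 (by decide +kernel) (by decide +kernel) hne e) (by decide)
    subst hc0
    rw [xg_zero certF4 (show 28 < chevF4.nroots by decide +kernel), one_mul,
      xg_eq_one_iff certF4 (show 30 < chevF4.nroots by decide +kernel)] at h1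
    exact ⟨rfl, rfl, rfl, h1⟩
  -- multiply by an inverse
  have hinv : B.W α' β' γ' δ' * B.W α' β' (γ' + α' * β') (δ' + α' ^ 2 * β') = 1 := by
    rw [B.W_mul, B.add_self, B.add_self,
      show γ' + (γ' + α' * β') + α' * β' = (γ' + γ') + (α' * β' + α' * β') by ring, B.add_self, B.add_self,
      show δ' + (δ' + α' ^ 2 * β') + α' ^ 2 * β' = (δ' + δ') + (α' ^ 2 * β' + α' ^ 2 * β') by ring]
    simp [B.add_self, h0]
  rw [← h, B.W_mul] at hinv
  obtain ⟨e1, e2, e3, e4⟩ := key _ _ _ _ hinv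
  have heq : ∀ x y : K, x + y = 0 → x = y := fun x y hxy => by
    have := B.add_self y
    linear_combination hxy - this
  have ea := heq _ _ e1
  have eb := heq _ _ e2
  subst ea eb
  refine ⟨rfl, rfl, heq _ _ ?_, heq _ _ ?_⟩
  · have := B.add_self (α * β); linear_combination e3 - this
  · have := B.add_self (α ^ 2 * β); linear_combination e4 - this

theorem negSet_piJ1 : ∀ s : Fin chevF4.nroots, auxF4.pos s = true →
    auxF4.pos (wAct auxF4 [1, 2, 1, 2] s) = false → (s : ℕ) = 27 ∨ (s : ℕ) = 25 ∨ (s : ℕ) = 28 ∨ (s : ℕ) = 30 := by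
  decide +kernel

theorem Setup.exists_W (hK : Fintype.card K = 2 ^ (2 * m + 1)) {u : GL chevF4.Idx K}
    (hu : u ∈ Uw chevF4 auxF4 K (T.O.piJ T.J1)) : ∃ α β γ δ, u = (T.b2 hK true).W α β γ δ := by
  set B := T.b2 hK true with hB
  have hz : ∀ r, r < chevF4.nroots → xg chevF4 K r (0 : K) = 1 := fun r hr => xg_zero certF4 hr
  have h0 : B.W 0 0 0 0 = 1 := by
    simp [B2Data.W, hB, Setup.b2, rootB, hz 27 (by decide +kernel), hz 25 (by decide +kernel),
      hz 28 (by decide +kernel), hz 30 (by decide +kernel)]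
  induction hu using Subgroup.closure_induction with
  | mem x hx =>
    obtain ⟨r, a, hr, ⟨_, h1, h2⟩, -, rfl⟩ := hx
    have h3 : auxF4.pos (wAct auxF4 [1, 2, 1, 2] r) = false := by
      have : ((T.O.piJ T.J1 ⟨r, hr⟩ : Fin chevF4.nroots) : ℕ) = wAct auxF4 [1, 2, 1, 2] r := by
        show ((wp certF4 (T.O.wJ T.J1) ⟨r, hr⟩ : Fin chevF4.nroots) : ℕ) = _
        rw [T.wJ1, wp_val]; rfl
      rw [← this]; exact h2
    simp only [B2Data.W, hB, Setup.b2, rootB, if_true]
    rcases negSet_piJ1 ⟨r, hr⟩ h1 h3 with e | e | e | e <;> obtain rfl := e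
    · exact ⟨a, 0, 0, 0, by simp [hz 25 (by decide +kernel), hz 28 (by decide +kernel), hz 30 (by decide +kernel)]⟩
    · exact ⟨0, a, 0, 0, by simp [hz 27 (by decide +kernel), hz 28 (by decide +kernel), hz 30 (by decide +kernel)]⟩
    · exact ⟨0, 0, a, 0, by simp [hz 27 (by decide +kernel), hz 25 (by decide +kernel), hz 30 (by decide +kernel)]⟩
    · exact ⟨0, 0, 0, a, by simp [hz 27 (by decide +kernel), hz 25 (by decide +kernel), hz 28 (by decide +kernel)]⟩
  | one => exact ⟨0, 0, 0, 0, h0.symm⟩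
  | mul x y _ _ hx hy =>
    obtain ⟨a, b, c, d, rfl⟩ := hx
    obtain ⟨a', b', c', d', rfl⟩ := hy
    exact ⟨_, _, _, _, B.W_mul a b c d a' b' c' d'⟩
  | inv x _ hx =>
    obtain ⟨a, b, c, d, rfl⟩ := hx
    refine ⟨a, b, c + a * b, d + a ^ 2 * b, inv_eq_of_mul_eq_one_right ?_⟩
    rw [B.W_mul, B.add_self, B.add_self,
      show c + (c + a * b) + a * b = (c + c) + (a * b + a * b) by ring, B.add_self, B.add_self,
      show d + (d + a ^ 2 * b) + a ^ 2 * b = (d + d) + (a ^ 2 * b + a ^ 2 * b) by ring]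
    simp [B.add_self, h0]

theorem Setup.W_mem_Uw (hK : Fintype.card K = 2 ^ (2 * m + 1)) (α β γ δ : K) :
    (T.b2 hK true).W α β γ δ ∈ Uw chevF4 auxF4 K (T.O.piJ T.J1) := by
  have key : ∀ r : Fin chevF4.nroots, auxF4.pos r = true → auxF4.pos (wAct auxF4 [1, 2, 1, 2] r) = false →
      ∀ t : K, xg chevF4 K r t ∈ Uw chevF4 auxF4 K (T.O.piJ T.J1) := fun r h1 h2 t => by
    refine xg_mem_Uw r h1 ?_ t
    show auxF4.pos ((wp certF4 (T.O.wJ T.J1) r : Fin chevF4.nroots) : ℕ) = false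
    rw [T.wJ1, wp_val]; exact h2
  exact mul_mem (mul_mem (mul_mem (key ⟨27, by decide +kernel⟩ (by decide +kernel) (by decide +kernel) α)
    (key ⟨25, by decide +kernel⟩ (by decide +kernel) (by decide +kernel) β))
    (key ⟨28, by decide +kernel⟩ (by decide +kernel) (by decide +kernel) γ))
    (key ⟨30, by decide +kernel⟩ (by decide +kernel) (by decide +kernel) δ)

theorem Setup.fixU_J1 (hK : Fintype.card K = 2 ^ (2 * m + 1)) (u : GL chevF4.Idx K) :
    u ∈ fixU T.S (T.O.piJ T.J1) ↔ ∃ t s, u = (T.b2 hK true).word t s := by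
  constructor
  · rintro ⟨h1, h2⟩
    obtain ⟨α, β, γ, δ, rfl⟩ := T.exists_W hK h1
    exact ⟨_, _, (T.b2 hK true).word_of_fixed (fun _ _ _ _ _ _ _ _ h => T.W_inj hK h) h2⟩
  · rintro ⟨t, s, rfl⟩
    exact ⟨T.W_mem_Uw hK _ _ _ _, B2Data.word_fixed _ t s⟩

/-- the rank one identity -/
theorem id_J1 : wordIdOK chevF4 auxF4 2
    ([(27, 0), (25, 0), (28, 1), (30, 1)] ++ [(20, 1), (22, 1), (19, 0), (17, 1)] ++ [(27, 1), (25, 1), (28, 1), (30, 0)])
    (ngWord chevF4 [1, 2, 1, 2]) = true := by decide +kernel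

theorem Setup.nJ1_eq (hK : Fintype.card K = 2 ^ (2 * m + 1)) :
    wg chevF4 K (T.O.wJ T.J1) =
      (T.b2 hK true).word 0 1 * (T.b2 hK false).word 1 1 * (T.b2 hK true).word 1 0 := by
  have h2 : (1 : K) + 1 = 0 := by rw [one_add_one_eq_two, T.two]
  have h := wordProd_eq_of_ok (hc := certF4) (K := K) (p := 2) (by exact_mod_cast T.two) id_J1
  rw [wordProd_ngWord _ (by decide +kernel)] at h
  rw [T.wJ1, show ([n1, n2, n1, n2] : List (Fin chevF4.rank)) = toFins chevF4.rank [1, 2, 1, 2] from rfl, ← h]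
  simp [B2Data.word, B2Data.W, Setup.b2, rootB, wordProd, h2, mul_assoc]

theorem Setup.mem_fixT (hK : Fintype.card K = 2 ^ (2 * m + 1)) {c : Fin chevF4.rank → Kˣ} :
    c ∈ T.S.fixT ↔ (c n0 : K) = T.g (c n3 : K) ∧ (c n1 : K) = T.g (c n2 : K) := by
  rw [T.S.mem_fixT_iff]
  obtain ⟨p0, p1, p2, p3⟩ := T.phi_short
  constructor
  · intro h
    have a := h n3; have b := h n2
    rw [T.node3, p3] at a; rw [T.node2, p2] at b
    exact ⟨a, b⟩
  · rintro ⟨a, b⟩ i
    rcases node_cases i with rfl | rfl | rfl | rfl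
    · rw [T.node0, p0, a, (T.pow_fg hK _).1]
    · rw [T.node1, p1, b, (T.pow_fg hK _).1]
    · rw [T.node2, p2, b]
    · rw [T.node3, p3, a]

include T in
theorem Setup.ker_bot : (torusFin chevF4 auxF4 K).ker = ⊥ := ker_torusFin_eq_bot certF4 tor_F4 (by
  simp [torF4])

theorem Setup.obs : ∀ c, T.S.twT c * c⁻¹ ∈ (torusFin chevF4 auxF4 K).ker →
    ∃ z ∈ (torusFin chevF4 auxF4 K).ker, c * z ∈ T.S.fixT :=
  T.S.obs_of_free fun z hz _ => by rwa [T.ker_bot, Subgroup.mem_bot] at hz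

theorem inv_J1 : ∀ s : Fin chevF4.nroots, ∀ k : Fin chevF4.rank, (k : ℕ) = 0 ∨ (k : ℕ) = 3 ∨
    auxF4.cA k (wAct auxF4 [1, 2, 1, 2] s) = -auxF4.cA k s := by decide +kernel

theorem cA_facts : ∀ k : Fin chevF4.rank,
    auxF4.cA k 28 = auxF4.cA k 27 + auxF4.cA k 25 ∧ auxF4.cA k 30 = auxF4.cA k 27 + auxF4.cA k 28 ∧
    auxF4.cA k 20 = -auxF4.cA k 27 ∧ auxF4.cA k 22 = -auxF4.cA k 25 ∧ auxF4.cA k 19 = -auxF4.cA k 28 ∧
    auxF4.cA k 17 = -auxF4.cA k 30 := by decide +kernel

theorem Setup.conj_word (hK : Fintype.card K = 2 ^ (2 * m + 1)) {c : Fin chevF4.rank → Kˣ} (hc' : c ∈ T.S.fixT)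
    (b : Bool) (t u : K) :
    torusFin chevF4 auxF4 K c * (T.b2 hK b).word t u * (torusFin chevF4 auxF4 K c)⁻¹ =
      (T.b2 hK b).word ((tchar auxF4 c (rootB b).2.1 : K) * t) ((tchar auxF4 c (rootB b).2.2.1 : K) * u) := by
  have h28 : tchar auxF4 c 28 = tchar auxF4 c 27 * tchar auxF4 c 25 := by
    simp only [tchar, ← Finset.prod_mul_distrib]
    exact Finset.prod_congr rfl fun k _ => by rw [(cA_facts k).1, zpow_add]
  have h30 : tchar auxF4 c 30 = tchar auxF4 c 27 * tchar auxF4 c 28 := by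
    simp only [tchar, ← Finset.prod_mul_distrib]
    exact Finset.prod_congr rfl fun k _ => by rw [(cA_facts k).2.1, zpow_add]
  have hneg : tchar auxF4 c 20 = (tchar auxF4 c 27)⁻¹ ∧ tchar auxF4 c 22 = (tchar auxF4 c 25)⁻¹ ∧
      tchar auxF4 c 19 = (tchar auxF4 c 28)⁻¹ ∧ tchar auxF4 c 17 = (tchar auxF4 c 30)⁻¹ := by
    simp only [tchar, ← Finset.prod_inv_distrib]
    refine ⟨?_, ?_, ?_, ?_⟩ <;> refine Finset.prod_congr rfl fun k _ => ?_ <;>
      obtain ⟨-, -, a1, a2, a3, a4⟩ := cA_facts k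
    · rw [a1, zpow_neg]
    · rw [a2, zpow_neg]
    · rw [a3, zpow_neg]
    · rw [a4, zpow_neg]
  have ha : (tchar auxF4 c 27 : K) = T.g (tchar auxF4 c 25 : K) := by
    have := tchar_twist (S := T.S) hc' n2
    rw [T.node2, T.phi_short.2.2.1, show chevF4.simple n1 = 27 by decide +kernel,
      show chevF4.simple n2 = 25 by decide +kernel] at this
    exact this
  have hd : (tchar auxF4 c 30 : K) = T.f (tchar auxF4 c 28 : K) := by
    rw [h30, h28, Units.val_mul, Units.val_mul, map_mul, ha, (T.pow_fg hK _).1, ← T.gsq]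
    ring
  refine (T.b2 hK b).word_conj _ (tchar auxF4 c (rootB b).1 : K) (tchar auxF4 c (rootB b).2.1 : K)
    (tchar auxF4 c (rootB b).2.2.1 : K) (tchar auxF4 c (rootB b).2.2.2 : K)
    (torusFin_conj (hc := certF4) c (rootB_facts b).1.1) (torusFin_conj (hc := certF4) c (rootB_facts b).2.1.1)
    (torusFin_conj (hc := certF4) c (rootB_facts b).2.2.1.1) (torusFin_conj (hc := certF4) c (rootB_facts b).2.2.2.1)
    ?_ ?_ ?_ t u
  all_goals cases b <;>
    simp only [rootB, Setup.b2, Bool.false_eq_true, if_false, if_true, hneg, Units.val_inv_eq_inv_val]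
  · rw [map_inv₀, ← ha]
  · exact ha
  · rw [h28, Units.val_mul, mul_inv]
  · rw [h28, Units.val_mul]
  · rw [map_inv₀, ← hd]
  · exact hd

theorem Setup.H_le (hK : Fintype.card K = 2 ^ (2 * m + 1)) :
    chevF4.diagonalSubgroup K ⊓ T.S.fix ≤ twistedF4 K (2 ^ m) := by
  rw [T.S.H_fix_eq T.obs]
  rintro g ⟨c, hc', rfl⟩
  obtain ⟨-, hc12⟩ := (T.mem_fixT hK).1 hc'
  let d : Fin chevF4.rank → Kˣ := fun i => if i = n1 ∨ i = n2 then c i ^ (2 ^ (2 * m)) else 1
  have hd : d ∈ T.S.fixT := (T.mem_fixT hK).2 (by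
    constructor
    · simp [d, n0, n1, n2, n3]
    · simp [d, hc12, map_pow])
  have hdec : c = ([n0, n3].map fun i => Pi.mulSingle i (c i)).prod * (d * d) := by
    have hsq : ∀ x : Kˣ, x ^ (2 ^ (2 * m)) * x ^ (2 ^ (2 * m)) = x := fun x => Units.ext (by
      rw [← pow_add, Units.val_pow_eq_pow_val, ← two_mul, ← pow_succ', ← hK, FiniteField.pow_card])
    funext i
    rcases node_cases i with rfl | rfl | rfl | rfl <;> simp [d, n0, n1, n2, n3, hsq]
  have hgroup : ∀ b t u, (T.b2 hK b).word t u ∈ twistedF4 K (2 ^ m) := T.word_mem hK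
  rw [hdec, map_mul, map_mul, torusFin_list, ← T.nd0]
  refine mul_mem ((T.orth hK).hg_mem c fun i _ => (T.S.mem_fixT_iff).1 hc' i) ?_
  set h := torusFin chevF4 auxF4 K d with hh
  set n := wg chevF4 K (T.O.wJ T.J1) with hn
  have hn1 : n ∈ twistedF4 K (2 ^ m) := by
    rw [hn, T.nJ1_eq hK]; exact mul_mem (mul_mem (hgroup _ _ _) (hgroup _ _ _)) (hgroup _ _ _)
  have hn2 : h * n * h⁻¹ ∈ twistedF4 K (2 ^ m) := by
    have e : h * n * h⁻¹ = (h * (T.b2 hK true).word 0 1 * h⁻¹) * (h * (T.b2 hK false).word 1 1 * h⁻¹) *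
        (h * (T.b2 hK true).word 1 0 * h⁻¹) := by rw [hn, T.nJ1_eq hK]; group
    rw [e, T.conj_word hK hd, T.conj_word hK hd, T.conj_word hK hd]
    exact mul_mem (mul_mem (hgroup _ _ _) (hgroup _ _ _)) (hgroup _ _ _)
  have hconj : n * h * n⁻¹ = h⁻¹ := by
    rw [hn, hh, T.wJ1]
    refine wg_conj_torus (hc := certF4) _ d (Equiv.ext fun s => Fin.ext ?_) fun k s => ?_
    · rw [← wp_append, wp_val]
      revert s
      decide +kernel
    · rw [wp_val]
      rcases inv_J1 s k with h0 | h0 | h0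
      · left; simp [d, n1, n2, Fin.ext_iff, h0]
      · left; simp [d, n1, n2, Fin.ext_iff, h0]
      · exact Or.inr h0
  have e : h * h = h * n * h⁻¹ * n⁻¹ := by
    calc h * h = h * (n * h * n⁻¹)⁻¹ := by rw [hconj, inv_inv]
      _ = h * n * h⁻¹ * n⁻¹ := by group
  rw [e]
  exact mul_mem hn2 (inv_mem hn1)

/-- the group with its data -/
noncomputable def Setup.full (hK : Fintype.card K = 2 ^ (2 * m + 1)) : Full T.O where
  G1 := twistedF4 K (2 ^ m)
  le_fix := T.le_fix hK
  nJ J := wg chevF4 K (T.O.wJ J)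
  nJ_mem J := by
    rcases T.J_cases J with rfl | rfl
    · exact (T.orth hK).ng_mem
    · rw [T.nJ1_eq hK]; exact mul_mem (mul_mem (T.word_mem hK _ _ _) (T.word_mem hK _ _ _)) (T.word_mem hK _ _ _)
  nJ_mon J := wg_mem_N certF4 _
  nJ_acts J := acts_wg certF4 _
  UJ_le J := by
    rcases T.J_cases J with rfl | rfl
    · exact (T.orth hK).UJ_le (T.closed _)
    · intro u hu
      obtain ⟨t, s, rfl⟩ := (T.fixU_J1 hK u).1 hu
      exact T.word_mem hK _ t s
  H_le := T.H_le hK
  piJ_inj J J' h := by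
    have e : wAct auxF4 ((T.O.wJ J).map Fin.val) (chevF4.simple 0) =
        wAct auxF4 ((T.O.wJ J').map Fin.val) (chevF4.simple 0) := by
      rw [show chevF4.simple 0 = ((sR certF4 n0 : Fin chevF4.nroots) : ℕ) from rfl, ← wp_val certF4,
        ← wp_val certF4]
      exact congrArg (fun π : Equiv.Perm (Fin chevF4.nroots) => ((π (sR certF4 n0) : Fin chevF4.nroots) : ℕ)) h
    rcases T.J_cases J with rfl | rfl <;> rcases T.J_cases J' with rfl | rfl <;>
      simp only [T.wJ0, T.wJ1] at e ⊢ <;> exact absurd e (by decide +kernel)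
  nd_ne J := by rcases T.J_cases J with rfl | rfl <;> simp [T.nd0, T.nd1]
  faith J i hi := by
    rcases T.J_cases J with rfl | rfl
    · exact (T.orth hK).faith (T.closed _) hi
    · have hfix := (T.fixU_J1 hK _).2 ⟨1, 0, rfl⟩
      obtain ⟨v, hv, t, e⟩ := mem_U_split certF4 i.2 (Uw_le_U certF4 hfix.1)
      refine ⟨v, hv, t, ?_, e ▸ hfix⟩
      -- a simple coefficient cannot vanish
      rintro rfl
      rw [xg_zero certF4 (simple_lt certF4 i.2), mul_one] at e
      have hup : ∀ r : ℕ, r < chevF4.nroots ∧ auxF4.pos r = true ∧ r ≠ chevF4.simple i → ∀ s : K,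
          xg chevF4 K r s ∈ Up chevF4 auxF4 K i :=
        fun r hr s => xg_mem_UG hr.1 ⟨hr.2.1, hr.2.2⟩ (Nat.zero_le _) s
      set W := (T.b2 hK true).word (1 : K) 0 with hW
      have hWup : W ∈ Up chevF4 auxF4 K i := e ▸ hv
      simp only [hW, B2Data.word, B2Data.W, Setup.b2, rootB, if_true, map_one, map_zero,
        xg_zero certF4 (show 30 < chevF4.nroots by decide +kernel), mul_one] at hWup
      simp only [T.nd1, List.mem_cons, List.not_mem_nil, or_false] at hi
      rcases hi with rfl | rfl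
      · have := mul_mem hWup (inv_mem (mul_mem (hup 25 (by decide +kernel) 1) (hup 28 (by decide +kernel) (1 + 0))))
        rw [mul_assoc (xg chevF4 K 27 (1 : K)), mul_inv_cancel_right,
          show (27 : ℕ) = chevF4.simple n1 by decide +kernel] at this
        exact one_ne_zero (mem_Up_root (hc := certF4) (i := n1) this)
      · have := mul_mem (mul_mem (inv_mem (hup 27 (by decide +kernel) 1)) hWup)
          (inv_mem (hup 28 (by decide +kernel) (1 + 0)))
        rw [mul_assoc (xg chevF4 K 27 (1 : K)), inv_mul_cancel_left, mul_inv_cancel_right,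
          show (25 : ℕ) = chevF4.simple n2 by decide +kernel] at this
        exact one_ne_zero (mem_Up_root (hc := certF4) (i := n2) this)

theorem Setup.card_UJ (hK : Fintype.card K = 2 ^ (2 * m + 1)) (J : Fin T.O.no) :
    Nat.card (fixU T.S (T.O.piJ J)) ^ 2 = (2 ^ (2 * m + 1)) ^ len chevF4 auxF4 (T.O.piJ J) := by
  have hlen : ∀ L : List ℕ, T.O.wJ J = toFins chevF4.rank L → (∀ i ∈ L, i < chevF4.rank) →
      redOK chevF4 auxF4 L = true → len chevF4 auxF4 (T.O.piJ J) = L.length := fun L hL h1 h2 => by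
    show len chevF4 auxF4 (wp certF4 (T.O.wJ J)) = _
    rw [hL]
    exact len_word (hc := certF4) h1 h2
  rcases T.J_cases J with rfl | rfl
  · rw [hlen [0, 3] (by rw [T.wJ0]; rfl) (by decide +kernel) (by decide +kernel), (T.orth hK).card_fixU (T.closed _)]
    congr 1
    rw [← hK, ← Nat.card_eq_fintype_card]
    obtain ⟨p0, -, -, p3⟩ := T.phi_short
    refine Nat.card_congr
      { toFun := fun t => t.1 n3
        invFun := fun a => ⟨fun i => if i = n3 then a else if i = n0 then T.g a else 0, ?_, ?_⟩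
        left_inv := ?_
        right_inv := fun a => by simp }
    · intro i hi
      simp only [T.nd0, List.mem_cons, List.not_mem_nil, or_false] at hi
      rcases hi with rfl | rfl
      · rw [T.node0, p0]; simp [n0, n3, (T.pow_fg hK a).1]
      · rw [T.node3, p3]; simp [n0, n3]
    · intro i hi
      simp only [T.nd0, List.mem_cons, List.not_mem_nil, or_false, not_or] at hi
      simp [hi.1, hi.2]
    · intro t
      refine Subtype.ext (funext fun i => ?_)
      have h2 : t.1 n0 = T.g (t.1 n3) := by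
        have := t.2.1 n3 (by simp [T.nd0]); rwa [T.node3, p3] at this
      by_cases h1 : i = n3
      · subst h1; simp
      by_cases h3 : i = n0
      · subst h3; simp only [if_neg h1, if_true]; exact h2.symm
      · simp only [if_neg h1, if_neg h3]
        exact (t.2.2 i (by simp [T.nd0, h1, h3])).symm
  · rw [hlen [1, 2, 1, 2] (by rw [T.wJ1]; rfl) (by decide +kernel) (by decide +kernel)]
    have e : Nat.card (fixU T.S (T.O.piJ T.J1)) = Nat.card (K × K) := by
      refine (Nat.card_congr (Equiv.ofBijective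
        (fun p : K × K => (⟨(T.b2 hK true).word p.1 p.2, (T.fixU_J1 hK _).2 ⟨_, _, rfl⟩⟩ :
          fixU T.S (T.O.piJ T.J1))) ⟨?_, ?_⟩)).symm
      · rintro ⟨t, u⟩ ⟨t', u'⟩ e
        obtain ⟨-, e2, e3, -⟩ := T.W_inj hK (congrArg Subtype.val e)
        dsimp only at e2 e3
        subst e2
        exact Prod.ext rfl (add_left_cancel e3)
      · rintro ⟨u, hu⟩
        obtain ⟨t, s, rfl⟩ := (T.fixU_J1 hK u).1 hu
        exact ⟨(t, s), rfl⟩
    rw [e, Nat.card_prod, Nat.card_eq_fintype_card, hK]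
    show _ = _ ^ 4
    ring

theorem card_U (hK : Fintype.card K = 2 ^ (2 * m + 1)) :
    Nat.card ↥(chevF4.posUnipotent K ⊓ twistedF4 K (2 ^ m)) = (2 ^ (2 * m + 1)) ^ 12 := by
  obtain ⟨T⟩ := exists_setup hK
  obtain ⟨w, hw, hw'⟩ := exists_w0 T.S
  have h := (T.full hK).toParts.card_fixU 2 _ (T.card_UJ hK) hw
  rw [fixU, Uw_w0 hw' certF4, (T.full hK).toParts.fix_eq, len_w0 hw' certF4,
    show chevF4.nroots / 2 = 12 * 2 by decide +kernel, pow_mul] at h
  exact Nat.pow_left_injective two_ne_zero h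

theorem card_H (hK : Fintype.card K = 2 ^ (2 * m + 1)) :
    Nat.card ↥(chevF4.diagonalSubgroup K ⊓ twistedF4 K (2 ^ m)) = (2 ^ (2 * m + 1) - 1) ^ 2 := by
  obtain ⟨T⟩ := exists_setup hK
  have h := T.S.card_H_fix T.obs
  rw [T.ker_bot, bot_inf_eq, Subgroup.card_bot, mul_one] at h
  rw [show twistedF4 K (2 ^ m) = (T.full hK).toParts.G1 from rfl, ← (T.full hK).toParts.fix_eq, h]
  have e : Nat.card ↥T.S.fixT = Nat.card (Kˣ × Kˣ) := Nat.card_congr
    { toFun := fun c => (c.1 n3, c.1 n2)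
      invFun := fun p => ⟨fun i => if i = n3 then p.1 else if i = n2 then p.2 else if i = n0 then
          Units.map T.g.toRingHom.toMonoidHom p.1 else Units.map T.g.toRingHom.toMonoidHom p.2,
        (T.mem_fixT hK).2 (by constructor <;> simp [n0, n1, n2, n3])⟩
      left_inv := fun c => by
        obtain ⟨a, b⟩ := (T.mem_fixT hK).1 c.2
        refine Subtype.ext (funext fun i => Units.ext ?_)
        rcases node_cases i with rfl | rfl | rfl | rfl <;> simp [n0, n1, n2, n3] <;>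
          first | exact a.symm | exact b.symm
      right_inv := fun p => by ext <;> simp [n0, n2, n3] }
  rw [e, Nat.card_prod, Nat.card_units, Nat.card_eq_fintype_card, hK, sq]

theorem card_group (hK : Fintype.card K = 2 ^ (2 * m + 1)) :
    Nat.card ↥(twistedF4 K (2 ^ m)) =
      (2 ^ (2 * m + 1)) ^ 12 * (2 ^ (2 * m + 1) - 1) * ((2 ^ (2 * m + 1)) ^ 3 + 1) *
        ((2 ^ (2 * m + 1)) ^ 4 - 1) * ((2 ^ (2 * m + 1)) ^ 6 + 1) := by
  obtain ⟨T⟩ := exists_setup hK
  set P := (T.full hK).toParts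
  have hG : twistedF4 K (2 ^ m) = P.G1 := rfl
  have hU := card_U hK
  have hH := card_H hK
  rw [hG, ← P.fix_eq] at hU hH
  set q := 2 ^ (2 * m + 1) with hq
  have hq1 : 1 ≤ q := Nat.one_le_pow _ _ (by norm_num)
  have hdiv : ∀ π ∈ T.S.W1, 2 ∣ len chevF4 auxF4 π := by
    refine T.O.induction_W1 (P := fun π => 2 ∣ len chevF4 auxF4 π) (by simp) ?_
    intro π hπ J hJ _ ih
    rw [T.O.len_split (T.S.mem_W1.1 hπ).1 hJ]
    refine Nat.dvd_add ih ?_
    show 2 ∣ len chevF4 auxF4 (wp certF4 (T.O.wJ J))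
    rcases T.J_cases J with rfl | rfl
    · rw [T.wJ0, show ([n0, n3] : List (Fin chevF4.rank)) = toFins chevF4.rank [0, 3] from rfl,
        len_word (hc := certF4) (by decide +kernel) (by decide +kernel)]
      decide
    · rw [T.wJ1, show ([n1, n2, n1, n2] : List (Fin chevF4.rank)) = toFins chevF4.rank [1, 2, 1, 2] from rfl,
        len_word (hc := certF4) (by decide +kernel) (by decide +kernel)]
      decide
  have e : ∑ π ∈ T.S.W1fin, Nat.card ↥(fixU T.S π) =
      (1 + q) * (1 + q ^ 2 + q ^ 3 + q ^ 5 + q ^ 6 + q ^ 8 + q ^ 9 + q ^ 11) := by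
    rw [Finset.sum_congr rfl fun π hπ =>
      show Nat.card ↥(fixU T.S π) = q ^ (len chevF4 auxF4 π / 2) by
        refine Nat.pow_left_injective two_ne_zero ?_
        show Nat.card ↥(fixU T.S π) ^ 2 = (q ^ (len chevF4 auxF4 π / 2)) ^ 2
        rw [P.card_fixU 2 q (T.card_UJ hK) (T.S.mem_W1fin.1 hπ), ← pow_mul (a := q),
          Nat.div_mul_cancel (hdiv π (T.S.mem_W1fin.1 hπ))],
      twPoin_prod T.O T.no T.orb chainOK_F4 q]
    simp [chainF4, orbF4, expand]
    ring
  rw [hG, P.card_fix, card_fixB, hU, hH, e]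
  zify [Nat.one_le_pow 4 q hq1, hq1]
  ring

theorem exists_bnPair (hK : Fintype.card K = 2 ^ (2 * m + 1)) :
    ∃ P : Cfsg.BNPair ↥(twistedF4 K (2 ^ m)),
      P.B = (chevF4.borelSubgroup K ⊓ twistedF4 K (2 ^ m)).subgroupOf (twistedF4 K (2 ^ m)) ∧
      P.N = (chevF4.monomialSubgroup K ⊓ twistedF4 K (2 ^ m)).subgroupOf (twistedF4 K (2 ^ m)) := by
  obtain ⟨T⟩ := exists_setup hK
  exact (T.full hK).exists_bnPair

theorem normalCore (hK : Fintype.card K = 2 ^ (2 * m + 1)) :
    ((chevF4.borelSubgroup K ⊓ twistedF4 K (2 ^ m)).subgroupOf (twistedF4 K (2 ^ m))).normalCore = ⊥ := by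
  obtain ⟨T⟩ := exists_setup hK
  exact (T.full hK).normalCore_eq_bot

theorem weyl_hom (hK : Fintype.card K = 2 ^ (2 * m + 1)) :
    ∃ φ : ↥(chevF4.monomialSubgroup K ⊓ twistedF4 K (2 ^ m)) →* DihedralGroup 8, Function.Surjective φ ∧
      φ.ker = (chevF4.diagonalSubgroup K ⊓ twistedF4 K (2 ^ m)).subgroupOf
        (chevF4.monomialSubgroup K ⊓ twistedF4 K (2 ^ m)) := by
  obtain ⟨T⟩ := exists_setup hK
  obtain ⟨φ, h1, h2⟩ := (T.full hK).exists_weyl_hom (M := chevF4.monomialSubgroup K ⊓ twistedF4 K (2 ^ m)) rfl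
  let a : ↥T.S.W1 := ⟨T.O.piJ T.J0, T.O.piJ_mem _⟩
  let b : ↥T.S.W1 := ⟨T.O.piJ T.J1, T.O.piJ_mem _⟩
  have hab : (a * b) ^ 8 = 1 := by
    refine Subtype.ext (Equiv.ext fun s => Fin.ext ?_)
    show (((wp certF4 (T.O.wJ T.J0) * wp certF4 (T.O.wJ T.J1)) ^ 8) s : Fin chevF4.nroots).val = (s : ℕ)
    rw [T.wJ0, T.wJ1, ← wp_append]
    simp only [pow_succ, pow_zero, one_mul, ← wp_append, wp_val]
    revert s
    decide +kernel
  obtain ⟨f, hf0, hf1⟩ := exists_dihedral_hom a b (Subtype.ext ((T.full hK).sq_piJ T.J0))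
    (Subtype.ext ((T.full hK).sq_piJ T.J1)) hab
  have hsurj : Function.Surjective f := by
    rintro ⟨π, hπ⟩
    have hle : T.S.W1 ≤ f.range.map T.S.W1.subtype := by
      refine T.O.W1_eq_closure.trans_le ((Subgroup.closure_le _).2 ?_)
      rintro x ⟨J, rfl⟩
      rcases T.J_cases J with rfl | rfl
      · exact ⟨a, ⟨_, hf0⟩, rfl⟩
      · exact ⟨b, ⟨_, hf1⟩, rfl⟩
    obtain ⟨x, ⟨g, hg⟩, hx⟩ := hle hπ
    exact ⟨g, hg.trans (Subtype.ext hx)⟩
  have hcard : Nat.card (DihedralGroup 8) = Nat.card ↥T.S.W1 := by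
    rw [W1fin_card T.O T.no T.orb chainOK_F4, DihedralGroup.nat_card]
    decide +kernel
  let e := (MulEquiv.ofBijective f ((Nat.bijective_iff_surjective_and_card f).2 ⟨hsurj, hcard⟩)).symm
  refine ⟨e.toMonoidHom.comp φ, e.surjective.comp h1, ?_⟩
  rw [show (e.toMonoidHom.comp φ).ker = φ.ker by ext; simp, h2]
  rfl

theorem perfect (hK : Fintype.card K = 2 ^ (2 * m + 1)) (hm : 1 ≤ m) :
    commutator ↥(twistedF4 K (2 ^ m)) = ⊤ := by
  obtain ⟨T⟩ := exists_setup hK
  let P := (T.full hK).toParts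
  refine perfect_of_gens ?_
  have hmem : ∀ c ∈ T.S.fixT, torusFin chevF4 auxF4 K c ∈ P.G1 := fun c hc' => P.H_le (by
    rw [T.S.H_fix_eq T.obs]
    exact ⟨c, hc', rfl⟩)
  obtain ⟨u, hu⟩ := IsCyclic.exists_ofOrder_eq_natCard (α := Kˣ)
  have hu1 : (u : K) ≠ 1 := by
    rw [ne_eq, Units.val_eq_one]
    rintro rfl
    rw [orderOf_one, Nat.card_units, Nat.card_eq_fintype_card, hK] at hu
    have : 2 ^ 3 ≤ 2 ^ (2 * m + 1) := Nat.pow_le_pow_right two_pos (by omega)
    omega
  have hu2 : (u : K) ^ 2 ≠ 1 := fun h => hu1 (by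
    have h2 := T.two
    have : ((u : K) - 1) ^ 2 = 0 := by linear_combination h - ((u : K) - 1) * h2
    exact sub_eq_zero.1 (pow_eq_zero_iff two_ne_zero |>.1 this))
  have hg1 : ∀ x : K, x ≠ 1 → T.g x ≠ 1 := fun x hx h => hx (T.g.injective (h.trans (map_one _).symm))
  have table : ∀ k : Fin chevF4.rank,
      [auxF4.cA k 33, auxF4.cA k 24, auxF4.cA k 25, auxF4.cA k 28] =
        ([[2, 0, 0, -1], [-1, 0, -2, 0], [0, -1, 2, 1], [0, 2, -1, -1]].getD k [] : List ℤ) := by decide +kernel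
  -- the orthogonal orbit
  let c0 : Fin chevF4.rank → Kˣ := fun i =>
    if i = n3 then u else if i = n0 then Units.map T.g.toRingHom.toMonoidHom u else 1
  have hc0 : c0 ∈ T.S.fixT := (T.mem_fixT hK).2 (by constructor <;> simp [c0, n0, n1, n2, n3])
  have hne0 : ∀ i ∈ T.O.nd T.J0, (tchar auxF4 c0 (chevF4.simple i) : K) ≠ 1 := by
    intro i hi
    simp only [T.nd0, List.mem_cons, List.not_mem_nil, or_false] at hi
    have e : ∀ r, tchar auxF4 c0 r = c0 n0 ^ auxF4.cA n0 r * c0 n1 ^ auxF4.cA n1 r * c0 n2 ^ auxF4.cA n2 r *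
        c0 n3 ^ auxF4.cA n3 r := fun r => Fin.prod_univ_four fun k : Fin 4 => c0 k ^ auxF4.cA k r
    have t0 := table n0; have t3 := table n3
    simp [n0, n3] at t0 t3
    rcases hi with rfl | rfl
    · rw [show chevF4.simple n0 = 33 by decide +kernel]
      have : (tchar auxF4 c0 33 : K) = T.g (u : K) ^ 2 := by
        rw [e]; simp [c0, n0, n1, n2, n3, t0, t3]
      rw [this, ← map_pow]
      exact hg1 _ hu2
    · rw [show chevF4.simple n3 = 24 by decide +kernel, e]
      simpa [c0, n0, n1, n2, n3, t0, t3] using hu2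
  have hpos0 : ∀ (t : Fin chevF4.rank → K), (∀ i ∈ T.O.nd T.J0, t (T.S.node i) = T.S.phi i (t i)) →
      orbProd T.O T.J0 true t ∈ ⁅P.G1, P.G1⁆ := fun t ht =>
    (T.orth hK).torus_perfect hc0 (hmem c0 hc0) hne0 ht
  -- the orbit of type B2
  let c1 : Fin chevF4.rank → Kˣ := fun i =>
    if i = n2 then u else if i = n1 then Units.map T.g.toRingHom.toMonoidHom u else 1
  have hc1 : c1 ∈ T.S.fixT := (T.mem_fixT hK).2 (by constructor <;> simp [c1, n0, n1, n2, n3])
  have hv : (tchar auxF4 c1 28 : K) = u ∧ (tchar auxF4 c1 25 : K) = (u : K) ^ 2 / T.g (u : K) ^ 2 := by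
    have e : ∀ r, tchar auxF4 c1 r = c1 n0 ^ auxF4.cA n0 r * c1 n1 ^ auxF4.cA n1 r * c1 n2 ^ auxF4.cA n2 r *
        c1 n3 ^ auxF4.cA n3 r := fun r => Fin.prod_univ_four fun k : Fin 4 => c1 k ^ auxF4.cA k r
    have t1 := table n1; have t2 := table n2
    simp [n1, n2] at t1 t2
    constructor <;> rw [e] <;> simp [c1, n0, n1, n2, n3, t1, t2, div_eq_mul_inv, mul_comm]
  have hlam : (u : K) ^ 2 / T.g (u : K) ^ 2 ≠ 1 := by
    intro h
    rw [div_eq_one_iff_eq (pow_ne_zero _ (by simp)), T.gval, ← pow_mul] at h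
    have h' : u ^ 2 = u ^ (2 ^ m * 2) := Units.ext (by push_cast; exact h)
    have := (pow_eq_pow_iff_modEq.1 h').symm
    rw [hu, Nat.card_units, Nat.card_eq_fintype_card, hK] at this
    have h4 : 2 ≤ 2 ^ m := by
      calc 2 = 2 ^ 1 := by norm_num
        _ ≤ 2 ^ m := Nat.pow_le_pow_right two_pos hm
    have h5 : 2 ^ (2 * m + 1) = 2 * (2 ^ m * 2 ^ m) := by rw [pow_succ, two_mul m, pow_add]; ring
    have h6 := Nat.le_of_dvd (by omega) ((Nat.modEq_iff_dvd' (by omega)).1 this.symm)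
    have h7 : 2 ^ m * 2 ≤ 2 ^ m * 2 ^ m := Nat.mul_le_mul_left _ h4
    generalize 2 ^ m * 2 ^ m = A at *
    omega
  have hB : ∀ t s : K, (T.b2 hK true).word t s ∈ ⁅P.G1, P.G1⁆ := by
    set B := T.b2 hK true with hBdef
    have hh := hmem c1 hc1
    have hcomm : ∀ t s : K, B.word ((tchar auxF4 c1 25 : K) * t) ((tchar auxF4 c1 28 : K) * s) *
        (B.word t s)⁻¹ ∈ ⁅P.G1, P.G1⁆ := fun t s => by
      have := Subgroup.commutator_mem_commutator hh (show B.word t s ∈ P.G1 from T.word_mem hK true t s)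
      rw [commutatorElement_def, T.conj_word hK hc1 true] at this
      exact this
    have hinv : ∀ t s : K, (B.word t s)⁻¹ = B.word t (s + B.g t * t) := fun t s => by
      refine inv_eq_of_mul_eq_one_right ?_
      rw [B.word_mul, B.add_self, show s + (s + B.g t * t) + B.g t * t = (s + s) + (B.g t * t + B.g t * t) by ring,
        B.add_self, B.add_self, add_zero]
      simp [B2Data.word, B2Data.W, hBdef, Setup.b2, rootB,
        xg_zero certF4 (show 27 < chevF4.nroots by decide +kernel), xg_zero certF4 (show 25 < chevF4.nroots by decide +kernel),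
        xg_zero certF4 (show 28 < chevF4.nroots by decide +kernel), xg_zero certF4 (show 30 < chevF4.nroots by decide +kernel)]
    have hcentre : ∀ s : K, B.word 0 s ∈ ⁅P.G1, P.G1⁆ := by
      intro s
      have h := hcomm 0 (s / ((u : K) + 1))
      rw [hinv, B.word_mul, mul_zero, zero_add, hv.1, map_zero, zero_mul] at h
      have hne : (u : K) + 1 ≠ 0 := fun h0 => hu1 (by
        have := T.two
        linear_combination h0 - this)
      convert h using 2
      rw [add_zero, add_zero, ← mul_div_assoc, ← add_div]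
      field_simp
    intro t s
    set l : K := (tchar auxF4 c1 25 : K) with hl
    have hne : l + 1 ≠ 0 := fun h0 => hlam (by
      rw [← hv.2]
      have := T.two
      linear_combination h0 - this)
    have h := hcomm (t / (l + 1)) 0
    rw [hinv, B.word_mul] at h
    have e : l * (t / (l + 1)) + t / (l + 1) = t := by field_simp
    rw [e] at h
    set s' := (tchar auxF4 c1 28 : K) * 0 + (0 + B.g (t / (l + 1)) * (t / (l + 1))) + B.g (l * (t / (l + 1))) * (t / (l + 1))
    have h2 := mul_mem h (hcentre (s + s'))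
    rw [B.word_mul, add_zero, mul_zero, add_zero, add_comm s, ← add_assoc, B.add_self, zero_add] at h2
    exact h2
  refine gen_le (hc := certF4) fun w hw => ⟨word_ok hw, ?_⟩
  rcases T.gen_cases hK hw with ⟨b, t, ht, e⟩ | ⟨b, t, s, e⟩ <;> rw [e] <;> cases b
  · exact P.neg_mem (T.orth hK) hpos0 (T.closed _) ((T.full hK).sq_piJ _) ht
  · exact hpos0 t ht
  · refine mem_comm_of_conj (P.nJ_mem T.J1) ?_
    have hx : P.nJ T.J1 * (T.b2 hK false).word t s * (P.nJ T.J1)⁻¹ ∈ fixU T.S (T.O.piJ T.J1) := by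
      refine ⟨?_, P.le_fix (mul_mem (mul_mem (P.nJ_mem _) (T.word_mem hK false t s)) (inv_mem (P.nJ_mem _)))⟩
      rw [T.word_eq hK]
      refine P.conj_word_mem ((T.full hK).sq_piJ _) ?_
      rw [T.wJ1]
      simp only [b2ClassWord, Bool.false_eq_true, if_false, List.mem_cons, List.not_mem_nil, or_false]
      rintro p (rfl | rfl | rfl | rfl) <;> dsimp only <;> decide +kernel
    obtain ⟨t', s', e'⟩ := (T.fixU_J1 hK _).1 hx
    rw [e']
    exact hB t' s'
  · exact hB t s

theorem simple (hm : 1 ≤ m) (hK : Fintype.card K = 2 ^ (2 * m + 1)) :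
    IsSimpleGroup ↥(twistedF4 K (2 ^ m)) ∧ ¬ IsMulCommutative ↥(twistedF4 K (2 ^ m)) := by
  obtain ⟨T⟩ := exists_setup hK
  refine (T.full hK).isSimple (borel_isSolvable certF4 K) T.J0 (fun J => J) ?_ (perfect hK hm)
  intro J hJ
  rcases T.J_cases J with rfl | rfl
  · exact absurd rfl hJ
  · refine ⟨T.J0, by simp [Setup.J0, Setup.J1], fun h => ?_⟩
    rw [Orbits.piJ, Orbits.piJ, T.wJ0, T.wJ1, ← wp_append, ← wp_append] at h
    have e := congrArg (fun π : Equiv.Perm (Fin chevF4.nroots) => ((π (sR certF4 n0) : Fin chevF4.nroots) : ℕ)) h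
    simp only [wp_val] at e
    exact absurd e (by decide +kernel)

end Cfsg.Lib.Tw.F4
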